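import Cfsg.Agent.Lib.CyclicDefect.Sections
import Cfsg.Agent.Lib.Block.KleinSections

/-!
# The characters of the local block and their values on the sections
-/

set_option autoImplicit false
set_option linter.unusedSectionVars false
set_option linter.style.haveILetI false
set_option maxHeartbeats 1000000

namespace Cfsg.Agent.Lib.CyclicDefect

open Cfsg Cfsg.Agent.Lib Cfsg.Agent.Lib.Block Cfsg.Agent.Lib.BrauerPairs Cfsg.Agent.Lib.Star
open scoped ComplexConjugate

universe u

variable {p : ℕ} {M : Ideal AlgInt} [M.IsPrime]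

/-! ### Transport of sections along an automorphism -/

section SecTransport

variable {H : Type u} [Group H] [Finite H] (σ : H ≃* H)

/-- The centralisers of an element and of its image. -/
noncomputable def centTw (u : H) :
    Subgroup.centralizer (Subgroup.zpowers u : Set H) ≃*
      Subgroup.centralizer (Subgroup.zpowers (σ u) : Set H) where
  toFun c := ⟨σ c, mem_centralizer_zpowers.2 ((mem_centralizer_zpowers.1 c.2).map σ.toMonoidHom)⟩
  invFun c := ⟨σ.symm c, mem_centralizer_zpowers.2 (by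
    have := (mem_centralizer_zpowers.1 c.2).map σ.symm.toMonoidHom
    simpa using this)⟩
  left_inv c := Subtype.ext (σ.symm_apply_apply _)
  right_inv c := Subtype.ext (σ.apply_symm_apply _)
  map_mul' c d := Subtype.ext (map_mul σ (c : H) d)

theorem coe_centTw_symm {u : H} (c : Subgroup.centralizer (Subgroup.zpowers (σ u) : Set H)) :
    (((centTw σ u).symm c : Subgroup.centralizer (Subgroup.zpowers u : Set H)) : H) = σ.symm c :=
  rfl

theorem pbar_centTw {u : H} (f : CBlock (Subgroup.zpowers u)) :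
    pbar M (Subgroup.zpowers (σ u)) (mapBlock (centTw σ u) f) =
      tw σ (pbar M (Subgroup.zpowers u) f) := by
  refine alg_ext fun y => ?_
  rw [coeff_tw]
  by_cases hy : y ∈ Subgroup.centralizer (Subgroup.zpowers (σ u) : Set H)
  · have hy' := ((centTw σ u).symm ⟨y, hy⟩).2
    rw [coe_centTw_symm] at hy'
    rw [pbar, pbar, coeff_emb_of_mem _ _ hy, coeff_emb_of_mem _ _ hy',
      ← coeff_bar_mapBlock (centTw σ u) f]
    congr 1
    exact Subtype.ext (σ.apply_symm_apply y).symm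
  · rw [pbar, pbar, coeff_emb_of_not_mem _ _ hy, coeff_emb_of_not_mem _ _ fun h => hy ?_]
    have := (centTw σ u ⟨_, h⟩).2
    rwa [show ((centTw σ u ⟨σ.symm y, h⟩ : _) : H) = y from σ.apply_symm_apply y] at this

theorem fromSub_centTw {u : H} (f : CBlock (Subgroup.zpowers u)) :
    fromSub (Subgroup.centralizer (Subgroup.zpowers (σ u) : Set H))
        (eIdem (mapBlock (centTw σ u) f)) =
      tw σ (fromSub (Subgroup.centralizer (Subgroup.zpowers u : Set H)) (eIdem f)) := by
  refine alg_ext fun y => ?_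
  rw [coeff_tw]
  by_cases hy : y ∈ Subgroup.centralizer (Subgroup.zpowers (σ u) : Set H)
  · have hy' := ((centTw σ u).symm ⟨y, hy⟩).2
    rw [coe_centTw_symm] at hy'
    rw [coeff_fromSub_of_mem _ _ hy, coeff_fromSub_of_mem _ _ hy', coeff_eIdem, coeff_eIdem,
      ← blockCoeff_mapBlock (centTw σ u) f]
    congr 1
    exact Subtype.ext (σ.apply_symm_apply y).symm
  · rw [coeff_fromSub_of_not_mem _ _ hy, coeff_fromSub_of_not_mem _ _ fun h => hy ?_]
    have := (centTw σ u ⟨_, h⟩).2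
    rwa [show ((centTw σ u ⟨σ.symm y, h⟩ : _) : H) = y from σ.apply_symm_apply y] at this

theorem sec_tw (ξ : IrrCharacter H) {u : H} {a : KG M H} (ha : a ∈ pset M (Subgroup.zpowers u))
    (g : H) :
    sec M (mapIrr σ ξ : H → ℂ) (σ u) (tw σ a) (σ g) = sec M (ξ : H → ℂ) u a g := by
  haveI := Fintype.ofFinite H
  obtain ⟨f, hf, rfl⟩ := mem_pset.1 ha
  rw [sec, sec, ← pbar_centTw, plift_pbar (isPBlock_mapBlock _ hf), plift_pbar hf, fromSub_centTw,
    ← tw_single σ g (1 : ℂ), ← map_mul]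
  set X := fromSub (Subgroup.centralizer (Subgroup.zpowers u : Set H)) (eIdem f) *
    MonoidAlgebra.single g (1 : ℂ)
  rw [pair_eq_sum, pair_eq_sum, ← Equiv.sum_comp σ.toEquiv]
  refine Finset.sum_congr rfl fun x _ => ?_
  simp only [MulEquiv.toEquiv_eq_coe, EquivLike.coe_coe, coeff_tw, MulEquiv.symm_apply_apply,
    mapIrr_apply]

/-- A character at a central element times another. -/
theorem char_central_mul {z : H} (hz : ∀ h : H, Commute z h) (ξ : IrrCharacter H) (c : H) :
    (ξ : H → ℂ) (z * c) = (ξ : H → ℂ) z / (ξ : H → ℂ) 1 * (ξ : H → ℂ) c := by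
  have h := pair_mul_of_class ξ.2 (isClassCoeff_single (k := ℂ) hz) (MonoidAlgebra.single c 1)
  rw [MonoidAlgebra.single_mul_single, one_mul, pair_single, pair_single, one_mul, one_mul, omega,
    pair_single, one_mul] at h
  exact h

theorem isIntegral_irr (ξ : IrrCharacter H) (c : H) : IsIntegral ℤ ((ξ : H → ℂ) c) := by
  obtain ⟨n, ρ, hρ⟩ := Char.isCharacter_of_isIrr ξ.2
  rw [← hρ]
  exact Char.isIntegral_character ρ c

theorem isIntegral_central_ratio {z : H} (hz : ∀ h : H, Commute z h) (ξ : IrrCharacter H) :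
    IsIntegral ℤ ((ξ : H → ℂ) z / (ξ : H → ℂ) 1) := by
  set ω := (ξ : H → ℂ) z / (ξ : H → ℂ) 1 with hω
  have hk : ∀ k : ℕ, (ξ : H → ℂ) (z ^ k) = ω ^ k * (ξ : H → ℂ) 1 := by
    intro k
    induction k with
    | zero => simp
    | succ k ih => rw [pow_succ', char_central_mul hz ξ, ih, pow_succ', mul_assoc]
  have h1 : ω ^ orderOf z = 1 := by
    have h := hk (orderOf z)
    rw [pow_orderOf_eq_one] at h
    exact (mul_eq_right₀ (deg_ne_zero ξ)).1 h.symm
  exact IsIntegral.of_pow (orderOf_pos z) (by rw [h1]; exact isIntegral_one)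

end SecTransport

variable {G : Type u} [Group G] [Finite G]
  {B : Set (IrrCharacter G)} {P : Subgroup G} {e : CBlock P}

/-- The stabiliser of the maximal pair permutes the blocks below it. -/
theorem cj_below (hM : IsPModular p M) (hmax : IsMaximalBrauerPair p M B P e) {t : G}
    (ht : t ∈ stab M P e) {u : G} (hu : u ∈ P) :
    cj t (below p M P e u) = below p M P e (t * u * t⁻¹) := by
  have hP : IsPGroup p P := hmax.1.1.1
  have he : IsPBlock M e := hmax.1.1.2
  obtain ⟨f, hf, hle, hb⟩ := exists_below hM hP he hu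
  rw [hb, ← pbar_conjBlock]
  refine (below_eq hM hP he (Q := sj t (Subgroup.zpowers u)) ?_ (isPBlock_conjBlock _ t hf) ?_).symm
  · exact (MulAut.conj t).toMonoidHom.map_zpowers u
  · have h := le_cIdx hM hle t
    rw [KleinDefect.stab_eq_self he ht] at h
    exact h

namespace Setup

variable (S : Setup p M B P e)

/-- The defect group inside the local group. -/
abbrev PH : Subgroup S.CZ := P.subgroupOf S.CZ

theorem exists_eH : ∃ e' : CBlock S.PH, IsMaximalBrauerPair p M S.f S.PH e' ∧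
    emb S.CZ (pbar M S.PH e') = pbar M P e := by
  have hab := abelian_of_cyclic S.hcyc
  have hCC : Subgroup.centralizer (P : Set G) ≤ S.CZ :=
    Subgroup.centralizer_le (SetLike.coe_subset_coe.2 S.Z_le)
  have hcb : IsPBlock M e := S.hmax.1.1.2
  obtain ⟨e', he', hee⟩ := exists_pull S.le_H hCC hcb
  have ho : Occ P e (pbar M S.Z S.f) := (step_of_le S.hM S.hP hcb S.hle Relation.ReflTransGen.refl
    S.Z_le (le_normalizer_of_abelian hab S.Z_le)).2.2.2.2.2.2
  have ho' : Occ S.PH e' (bar M S.f) := by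
    refine emb_injective S.CZ ?_
    rw [map_mul, hee, ← br_emb, Subgroup.map_subgroupOf_eq_of_le S.le_H]
    exact ho
  refine ⟨e', isMaximal_of_card S.hM ((isBrauerPairOf_iff S.hM).2
    ⟨S.hP.comap_subtype, he', S.hf, ho'⟩) ?_, hee⟩
  rw [card_subgroupOf S.le_H, blockDefect_below_abelian S.hM S.hmax hab S.hle,
    card_maximal S.hM S.hmax]

/-- A maximal pair of the local block. -/
noncomputable def eH : CBlock S.PH := S.exists_eH.choose

theorem eH_max : IsMaximalBrauerPair p M S.f S.PH S.eH := S.exists_eH.choose_spec.1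

theorem pbar_eH : emb S.CZ (pbar M S.PH S.eH) = pbar M P e := S.exists_eH.choose_spec.2

theorem eH_stab (x : S.CZ) : x ∈ stab M S.PH S.eH ↔ (x : G) ∈ stab M P e := by
  refine and_congr (mem_normalizer_subgroupOf S.le_H x) ?_
  show cj x (pbar M _ S.eH) = pbar M _ S.eH ↔ cj (x : G) (pbar M P e) = pbar M P e
  rw [← S.pbar_eH, cj_emb, (emb_injective S.CZ).eq_iff]

theorem abelian_PH : ∀ x ∈ S.PH, ∀ y ∈ S.PH, x * y = y * x := fun x hx y hy =>
  Subtype.ext (abelian_of_cyclic S.hcyc _ (Subgroup.mem_subgroupOf.1 hx) _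
    (Subgroup.mem_subgroupOf.1 hy))

theorem stab_centralizes {t : G} (ht : t ∈ stab M P e) (htH : t ∈ S.CZ) :
    t ∈ Subgroup.centralizer (P : Set G) :=
  mem_centralizer_of_fix S.hM S.hmax S.hcyc ht (S.Z_le S.z_mem) S.z_ne_one
    (by rw [← Subgroup.mem_centralizer_iff.1 htH _ S.z_mem, mul_inv_cancel_right])

theorem inner : InnerPairs p M S.PH S.eH :=
  innerPairs_of_nilpotent S.hM S.eH_max
    ((isNilpotentBlock_iff_of_abelian S.hM S.eH_max S.abelian_PH).2 fun x hx =>
      Subgroup.mem_centralizer_iff.2 fun u hu => Subtype.ext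
        (Subgroup.mem_centralizer_iff.1 (S.stab_centralizes ((S.eH_stab x).1 hx) x.2) _
          (Subgroup.mem_subgroupOf.1 hu)))

/-- An element of the defect group inside the local group. -/
abbrev uH (u : P) : S.CZ := ⟨u, S.le_H u.2⟩

theorem uH_mem (u : P) : S.uH u ∈ S.PH := Subgroup.mem_subgroupOf.2 u.2

theorem uH_isPElem (u : P) : IsPElem p (S.uH u) := by
  haveI : Fact p.Prime := ⟨S.hM.1⟩
  exact Block.isPElem_of_mem S.eH_max.1.1.1 (S.uH_mem u)

theorem centralizer_le_CZ {u : P} (hu : u ≠ 1) :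
    Subgroup.centralizer (Subgroup.zpowers (u : G) : Set G) ≤ S.CZ :=
  Subgroup.centralizer_le (SetLike.coe_subset_coe.2 (Subgroup.zpowers_le.2
    (S.z_mem_zpowers u.2 fun h => hu (Subtype.ext h))))

theorem mem_centralizer_uH (u : P) (x : S.CZ) :
    x ∈ Subgroup.centralizer (Subgroup.zpowers (S.uH u) : Set S.CZ) ↔
      (x : G) ∈ Subgroup.centralizer (Subgroup.zpowers (u : G) : Set G) := by
  rw [mem_centralizer_zpowers, mem_centralizer_zpowers]
  exact ⟨fun h => congrArg Subtype.val h, fun h => Subtype.ext h⟩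

/-- The sections of the local block and of the block agree. -/
theorem emb_below {u : P} (hu : u ≠ 1) :
    emb S.CZ (below p M S.PH S.eH (S.uH u)) = below p M P e (u : G) := by
  obtain ⟨g, hg, hle, hb⟩ := exists_below S.hM S.eH_max.1.1.1 S.eH_max.1.1.2 (S.uH_mem u)
  rw [hb, ← pbar_centSub (S.centralizer_le_CZ hu) (S.mem_centralizer_uH u) g]
  set gG := mapBlock (centSub (S.centralizer_le_CZ hu) (S.mem_centralizer_uH u)) g with hgG
  have hgGb : IsPBlock M gG := isPBlock_mapBlock _ hg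
  refine (below_eq S.hM S.hP S.hmax.1.1.2 rfl hgGb ?_).symm
  -- compare with the block below the maximal pair
  obtain ⟨f', hf', hle', -⟩ := exists_below S.hM S.hP S.hmax.1.1.2 u.2
  suffices hfg : f' = gG by rw [← hfg]; exact hle'
  have hQN : P ≤ Subgroup.normalizer ((Subgroup.zpowers (u : G) : Subgroup G) : Set G) :=
    (le_centralizer_of_abelian (abelian_of_cyclic S.hcyc) (Subgroup.zpowers_le.2 u.2)).trans
      (centralizer_le_normalizer_self _)
  have hQN' : S.PH ≤ Subgroup.normalizer ((Subgroup.zpowers (S.uH u) : Subgroup S.CZ) : Set S.CZ) :=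
    (le_centralizer_of_abelian S.abelian_PH (Subgroup.zpowers_le.2 (S.uH_mem u))).trans
      (centralizer_le_normalizer_self _)
  have ho : Occ P e (pbar M (Subgroup.zpowers (u : G)) f') :=
    (step_of_le S.hM S.hP S.hmax.1.1.2 hle' Relation.ReflTransGen.refl
      (Subgroup.zpowers_le.2 u.2) hQN).2.2.2.2.2.2
  have ho' : Occ S.PH S.eH (pbar M (Subgroup.zpowers (S.uH u)) g) :=
    (step_of_le S.hM S.eH_max.1.1.1 S.eH_max.1.1.2 hle Relation.ReflTransGen.refl
      (Subgroup.zpowers_le.2 (S.uH_mem u)) hQN').2.2.2.2.2.2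
  have hC' : Subgroup.centralizer (P : Set G) ≤ S.CZ :=
    Subgroup.centralizer_le (SetLike.coe_subset_coe.2 S.Z_le)
  by_contra hne
  have hzero : pbar M (Subgroup.zpowers (u : G)) f' * pbar M (Subgroup.zpowers (u : G)) gG = 0 :=
    pbar_mul_pbar_of_ne hf' hgGb hne
  -- the block of `C(P)` occurs in both
  have hoG : emb S.CZ (pbar M S.PH S.eH) * br P (pbar M (Subgroup.zpowers (u : G)) gG) =
      emb S.CZ (pbar M S.PH S.eH) := by
    have h := congrArg (emb S.CZ) ho'
    rw [map_mul, ← br_emb, Subgroup.map_subgroupOf_eq_of_le S.le_H] at h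
    rw [hgG, pbar_centSub (S.centralizer_le_CZ hu) (S.mem_centralizer_uH u) g]
    exact h
  have hfixf : ∀ x ∈ P, cj x (pbar M (Subgroup.zpowers (u : G)) f') =
      pbar M (Subgroup.zpowers (u : G)) f' := fun x hx => cj_pbar_of_centralizes _ f'
    ((le_centralizer_of_abelian (abelian_of_cyclic S.hcyc) (Subgroup.zpowers_le.2 u.2)) hx)
  have hfixg : ∀ x ∈ P, cj x (pbar M (Subgroup.zpowers (u : G)) gG) =
      pbar M (Subgroup.zpowers (u : G)) gG := fun x hx => cj_pbar_of_centralizes _ gG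
    ((le_centralizer_of_abelian (abelian_of_cyclic S.hcyc) (Subgroup.zpowers_le.2 u.2)) hx)
  have heq := S.pbar_eH
  have hbr := congrArg (fun a => pbar M P e * br P a) hzero
  simp only [br_zero, mul_zero, br_mul S.hM S.hP hfixf hfixg] at hbr
  rw [← mul_assoc, show pbar M P e * br P (pbar M (Subgroup.zpowers (u : G)) f') = pbar M P e from ho,
    ← heq, hoG, heq] at hbr
  exact pbar_ne_zero S.hmax.1.1.2 hbr


theorem pow_normP (j : ℕ) : S.n ^ j ∈ Subgroup.normalizer (P : Set G) := (pow_mem S.n_stab j).1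

/-- The action of the powers of `n` on the defect group. -/
noncomputable abbrev pconj (j : ℕ) : P ≃* P := normEquiv (S.pow_normP j)

theorem uH_pconj (j : ℕ) (u : P) : S.uH (S.pconj j u) = S.nconj j (S.uH u) := Subtype.ext rfl

theorem pconj_add (i j : ℕ) (u : P) : S.pconj i (S.pconj j u) = S.pconj (i + j) u :=
  Subtype.ext (by
    show S.n ^ i * (S.n ^ j * (u : G) * (S.n ^ j)⁻¹) * (S.n ^ i)⁻¹ =
      S.n ^ (i + j) * (u : G) * (S.n ^ (i + j))⁻¹
    rw [pow_add, mul_inv_rev]
    group)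

theorem n_pow_centralizer : S.n ^ S.m ∈ Subgroup.centralizer (P : Set G) :=
  S.stab_centralizes (pow_mem S.n_stab _) S.n_pow

theorem pconj_m (u : P) : S.pconj S.m u = u := Subtype.ext (by
  show S.n ^ S.m * (u : G) * (S.n ^ S.m)⁻¹ = (u : G)
  rw [← Subgroup.mem_centralizer_iff.1 S.n_pow_centralizer _ u.2, mul_inv_cancel_right])

theorem pconj_ne_one (j : ℕ) {u : P} (hu : u ≠ 1) : S.pconj j u ≠ 1 :=
  fun h => hu ((S.pconj j).injective (h.trans (map_one _).symm))

theorem tw_below (j : ℕ) {u : P} (hu : u ≠ 1) :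
    tw (S.nconj j) (below p M S.PH S.eH (S.uH u)) =
      below p M S.PH S.eH (S.uH (S.pconj j u)) := by
  refine emb_injective S.CZ ?_
  rw [S.emb_below (S.pconj_ne_one j hu), show ((S.pconj j u : P) : G) =
    S.n ^ j * (u : G) * (S.n ^ j)⁻¹ from rfl, ← cj_below S.hM S.hmax (pow_mem S.n_stab j) u.2,
    ← S.emb_below hu]
  refine alg_ext fun y => ?_
  rw [coeff_cj]
  by_cases hy : y ∈ S.CZ
  · rw [coeff_emb_of_mem _ _ hy,
      coeff_emb_of_mem _ _ ((Subgroup.mem_normalizer_iff''.1 (S.pow_normCZ j) y).1 hy), coeff_tw]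
    rfl
  · rw [coeff_emb_of_not_mem _ _ hy, coeff_emb_of_not_mem _ _ fun h => hy
      ((Subgroup.mem_normalizer_iff''.1 (S.pow_normCZ j) y).2 h)]

/-- The part of a function at a section of the local block. -/
noncomputable def secH (ξ : S.CZ → ℂ) (u : P) (s : S.CZ) : ℂ :=
  sec M ξ (S.uH u) (below p M S.PH S.eH (S.uH u)) (S.uH u * s)

theorem below_mem_pset (u : P) :
    below p M S.PH S.eH (S.uH u) ∈ pset M (Subgroup.zpowers (S.uH u)) :=
  below_mem S.hM S.eH_max.1.1.1 S.eH_max.1.1.2 (S.uH_mem u)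

theorem secH_mapIrr (j : ℕ) (ξ : IrrCharacter S.CZ) {u : P} (hu : u ≠ 1) (s : S.CZ) :
    S.secH (mapIrr (S.nconj j) ξ : S.CZ → ℂ) (S.pconj j u) (S.nconj j s) =
      S.secH (ξ : S.CZ → ℂ) u s := by
  rw [secH, secH, ← S.tw_below j hu, uH_pconj, ← map_mul]
  exact sec_tw (S.nconj j) ξ (S.below_mem_pset u) (S.uH u * s)

theorem finite_dual : Finite (P →* ℂˣ) ∧ Nat.card (P →* ℂˣ) = p ^ S.a := by
  letI : CommGroup P :=
    { (inferInstance : Group P) with
      mul_comm := fun x y => Subtype.ext (abelian_of_cyclic S.hcyc x x.2 y y.2) }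
  have h : Nat.card (P →* ℂˣ) = p ^ S.a :=
    (CommGroup.card_monoidHom_of_hasEnoughRootsOfUnity P ℂ).trans S.card_P
  exact ⟨Nat.finite_of_card_ne_zero (by rw [h]; exact (pow_pos S.hM.1.pos _).ne'), h⟩

open scoped Classical in
theorem sum_dual [Fintype (P →* ℂˣ)] (w : P) :
    ∑ ν : P →* ℂˣ, ((ν w : ℂˣ) : ℂ) =
      if w = 1 then ((p : ℂ) ^ S.a) else 0 := by
  split_ifs with hw
  · simp [hw, ← Nat.card_eq_fintype_card, S.finite_dual.2]
  · letI : CommGroup P :=
      { (inferInstance : Group P) with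
        mul_comm := fun x y => Subtype.ext (abelian_of_cyclic S.hcyc x x.2 y y.2) }
    obtain ⟨ν0, hν0⟩ := CommGroup.exists_apply_ne_one_of_hasEnoughRootsOfUnity P ℂ hw
    have h := Equiv.sum_comp (Equiv.mulLeft ν0) fun ν : P →* ℂˣ => ((ν w : ℂˣ) : ℂ)
    simp only [Equiv.coe_mulLeft, MonoidHom.mul_apply, Units.val_mul, ← Finset.mul_sum] at h
    by_contra hne
    exact hν0 (Units.ext ((mul_eq_right₀ hne).1 h))

/-- The weight of a linear character of the defect group. -/
noncomputable def lamH (ν : P →* ℂˣ) : S.CZ → ℂ :=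
  lamP S.PH fun w : S.PH =>
    ((ν ⟨((w : S.CZ) : G), Subgroup.mem_subgroupOf.1 w.2⟩ : ℂˣ) : ℂ)

theorem lamH_uH (ν : P →* ℂˣ) (u : P) : S.lamH ν (S.uH u) = ((ν u : ℂˣ) : ℂ) := by
  rw [lamH, lamP_apply _ (S.uH_mem u)]

theorem lamH_stable (ν : P →* ℂˣ) : StableFn p M S.PH S.eH (S.lamH ν) :=
  stableFn_of_inner S.inner (conjInv_lamP fun x y => by
    congr 2
    exact Subtype.ext (show (((y : S.CZ) : G) * ((x : S.CZ) : G) * ((y : S.CZ) : G)⁻¹ : G) = _ by
      rw [abelian_of_cyclic S.hcyc _ (Subgroup.mem_subgroupOf.1 y.2) _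
        (Subgroup.mem_subgroupOf.1 x.2), mul_inv_cancel_right]))

theorem exists_eta (ν : P →* ℂˣ) (η₀ : S.f) : ∃ χ : IrrCharacter S.CZ, χ ∈ S.f ∧
    (χ : S.CZ → ℂ) =
      starFn p M (weight p M S.PH S.eH (S.lamH ν)) (η₀.1 : S.CZ → ℂ) := by
  let l : S.PH →* ℂˣ := ν.comp (Subgroup.subgroupOfEquivOfLe S.le_H).toMonoidHom
  have hl : ∀ w : S.PH, S.lamH ν (w : S.CZ) = ((l w : ℂˣ) : ℂ) := fun w => by
    rw [lamH, lamP_apply _ w.2]
    rfl
  obtain ⟨χ, h1, h2, -⟩ := exists_star_irr S.hM S.eH_max (S.lamH_stable ν)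
    (by
      simp only [hl]
      exact Dade.generalized_of_isCharacter
        (Char.isCharacter_of_isIrr (Char.isIrrCharacter_linear l)))
    (fun w hw => by rw [hl ⟨w, hw⟩]; exact Char.linear_conj_mul l _)
    (by rw [show (1 : S.CZ) = ((1 : S.PH) : S.CZ) from rfl, hl, map_one, Units.val_one]) η₀.2
  exact ⟨χ, h1, h2⟩

/-- The member of the local block attached to a linear character of the defect group. -/
noncomputable def eta (η₀ : S.f) (ν : P →* ℂˣ) : S.f :=
  ⟨(S.exists_eta ν η₀).choose, (S.exists_eta ν η₀).choose_spec.1⟩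

theorem eta_val (η₀ : S.f) (ν : P →* ℂˣ) : ((S.eta η₀ ν).1 : S.CZ → ℂ) =
    starFn p M (weight p M S.PH S.eH (S.lamH ν)) (η₀.1 : S.CZ → ℂ) :=
  (S.exists_eta ν η₀).choose_spec.2

theorem secH_eta (η₀ : S.f) (ν : P →* ℂˣ) (u : P) {s : S.CZ} (hc : Commute (S.uH u) s)
    (hs : ¬ p ∣ orderOf s) :
    S.secH ((S.eta η₀ ν).1 : S.CZ → ℂ) u s =
      ((ν u : ℂˣ) : ℂ) * S.secH (η₀.1 : S.CZ → ℂ) u s := by
  rw [secH, secH, eta_val]
  have h := sec_starFn S.hM (isEquivariant_weight (p := p) (S.lamH_stable ν))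
    (Char.isClassFunction_of_isIrr η₀.1.2) (S.uH_isPElem u) (S.below_mem_pset u)
    (s := ⟨s, mem_centralizer_zpowers.2 hc⟩) (by rwa [← Subgroup.orderOf_coe])
  rw [show (S.uH u * s) = S.uH u *
    ((⟨s, mem_centralizer_zpowers.2 hc⟩ : Subgroup.centralizer
      (Subgroup.zpowers (S.uH u) : Set S.CZ)) : S.CZ) from rfl, h,
    weight_eq (S.lamH_stable ν) (y := 1) (by simp [S.uH_mem u])
      (by simp [cj_one_apply])]
  congr 1
  simp only [one_mul, inv_one, mul_one]
  exact S.lamH_uH ν u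

theorem exists_secH_ne_zero (η₀ : S.f) (u : P) :
    ∃ s : S.CZ, Commute (S.uH u) s ∧ ¬ p ∣ orderOf s ∧ S.secH (η₀.1 : S.CZ → ℂ) u s ≠ 0 := by
  obtain ⟨s, hs, hne⟩ := exists_sec_ne_zero_of_central S.hM S.eH_max (S.uH_mem u)
    (Subgroup.mem_centralizer_iff.2 fun x hx => S.abelian_PH x hx _ (S.uH_mem u)) η₀.2
  exact ⟨s, mem_centralizer_zpowers.1 s.2, by rwa [Subgroup.orderOf_coe], hne⟩

theorem eta_injective (η₀ : S.f) : Function.Injective (S.eta η₀) := by
  intro ν μ h
  refine MonoidHom.ext fun u => Units.ext ?_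
  obtain ⟨s, hc, hs, hne⟩ := S.exists_secH_ne_zero η₀ u
  have h1 := S.secH_eta η₀ ν u hc hs
  rw [h, S.secH_eta η₀ μ u hc hs] at h1
  exact (mul_right_cancel₀ hne h1).symm

theorem eta_bijective (η₀ : S.f) : Function.Bijective (S.eta η₀) := by
  haveI := S.finite_dual.1
  haveI := Fintype.ofFinite (P →* ℂˣ)
  haveI := Fintype.ofFinite S.f
  refine (Fintype.bijective_iff_injective_and_card _).2 ⟨S.eta_injective η₀, ?_⟩
  rw [← Nat.card_eq_fintype_card, ← Nat.card_eq_fintype_card, S.finite_dual.2, S.model.card_b]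

theorem eta_one (η₀ : S.f) : S.eta η₀ 1 = η₀ := by
  obtain ⟨μ, hμ⟩ := (S.eta_bijective η₀).2 η₀
  suffices h : μ = 1 by rw [← h]; exact hμ
  refine MonoidHom.ext fun u => Units.ext ?_
  obtain ⟨s, hc, hs, hne⟩ := S.exists_secH_ne_zero η₀ u
  have h1 := S.secH_eta η₀ μ u hc hs
  rw [hμ] at h1
  rw [MonoidHom.one_apply, Units.val_one]
  exact (mul_eq_right₀ hne).1 h1.symm

/-- The parametrisation commutes with the inertial action. -/
theorem perm_pow_eta (η₀ : S.f) (h0 : S.perm η₀ = η₀) (j : ℕ) (ν : P →* ℂˣ) :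
    (S.perm ^ j) (S.eta η₀ ν) = S.eta η₀ (ν.comp (S.pconj j).symm.toMonoidHom) := by
  have hfix : ((S.perm ^ j) η₀) = η₀ := by
    induction j with
    | zero => simp
    | succ j ih => rw [pow_succ', Equiv.Perm.mul_apply, ih, h0]
  obtain ⟨μ, hμ⟩ := (S.eta_bijective η₀).2 ((S.perm ^ j) (S.eta η₀ ν))
  rw [← hμ]
  congr 1
  refine MonoidHom.ext fun w => Units.ext ?_
  obtain ⟨u, rfl⟩ := (S.pconj j).surjective w
  rw [MonoidHom.comp_apply, MulEquiv.coe_toMonoidHom, MulEquiv.symm_apply_apply]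
  rcases eq_or_ne u 1 with rfl | hu
  · rw [map_one, map_one, map_one]
  obtain ⟨s, hc, hs, hne⟩ := S.exists_secH_ne_zero η₀ u
  have hc' : Commute (S.uH (S.pconj j u)) (S.nconj j s) := by
    rw [S.uH_pconj]; exact hc.map (S.nconj j).toMonoidHom
  have hs' : ¬ p ∣ orderOf (S.nconj j s) := by rwa [MulEquiv.orderOf_eq]
  have h1 := S.secH_eta η₀ μ (S.pconj j u) hc' hs'
  rw [hμ, S.perm_pow, S.secH_mapIrr j _ hu, S.secH_eta η₀ ν u hc hs] at h1
  have h2 := S.secH_mapIrr j η₀.1 hu s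
  rw [← S.perm_pow, hfix] at h2
  rw [h2] at h1
  exact (mul_right_cancel₀ hne h1).symm

/-- The parts of the whole local block cancel. -/
theorem sum_secH [Fintype S.f] (η₀ : S.f) {u : P} (hu : u ≠ 1) {s : S.CZ}
    (hc : Commute (S.uH u) s) (hs : ¬ p ∣ orderOf s) :
    ∑ η : S.f, S.secH (η.1 : S.CZ → ℂ) u s = 0 := by
  haveI := S.finite_dual.1
  haveI := Fintype.ofFinite (P →* ℂˣ)
  rw [← (S.eta_bijective η₀).sum_comp fun η : S.f => S.secH (η.1 : S.CZ → ℂ) u s]
  simp only [S.secH_eta η₀ _ u hc hs, ← Finset.sum_mul, S.sum_dual, if_neg hu, zero_mul]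

/-- Integrality and divisibility of the local parts. -/
theorem secH_facts (η₀ : S.f) {u : P} (hu : u ≠ 1) {s : S.CZ} (hc : Commute (S.uH u) s)
    (hs : ¬ p ∣ orderOf s) :
    IsIntegral ℤ (S.secH (η₀.1 : S.CZ → ℂ) u s) ∧
    (p : ℂ) ^ S.a * S.secH (η₀.1 : S.CZ → ℂ) u s /
      (Nat.card (Subgroup.centralizer ({(u : G) * (s : G)} : Set G)) : ℂ) ∈ locRing M := by
  classical
  haveI : Fact p.Prime := ⟨S.hM.1⟩
  have hab := abelian_of_cyclic S.hcyc
  obtain ⟨fu, hfu, hle, hbel⟩ := exists_below S.hM S.hP S.hmax.1.1.2 u.2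
  set C := Subgroup.centralizer (Subgroup.zpowers (u : G) : Set G) with hCdef
  have hCH : C ≤ S.CZ := S.centralizer_le_CZ hu
  haveI := Fintype.ofFinite C
  -- the local model at `u`
  obtain ⟨e', he', hst⟩ := exists_pull_maximal S.hM S.hmax hab hle
  have hPC : P ≤ C := le_centralizer_of_abelian hab (Subgroup.zpowers_le.2 u.2)
  have hcyc' : IsCyclic (P.subgroupOf C) := (Subgroup.subgroupOfEquivOfLe hPC).isCyclic.2 S.hcyc
  have hP1' : P.subgroupOf C ≠ ⊥ := by
    rw [Ne, ← Subgroup.card_eq_one, card_subgroupOf hPC, Subgroup.card_eq_one]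
    exact S.hP1
  obtain ⟨a', ha', zu, -, -, ⟨Md⟩⟩ := exists_model S.hM he' hcyc' hP1'
    (fun x hx => Subgroup.mem_centralizer_iff.2 fun w hw => Subtype.ext
      (Subgroup.mem_centralizer_iff.1 (S.stab_centralizes ((hst x).1 hx) (hCH x.2)) _
        (Subgroup.mem_subgroupOf.1 hw)))
    fun w hw hwo h => Subtype.ext (Subgroup.mem_centralizer_iff.1 (hCH h.2) _ (S.mem_Z _
      (Subgroup.mem_subgroupOf.1 hw) (by
        rw [← Subgroup.coe_pow, ← hwo, pow_orderOf_eq_one, Subgroup.coe_one])))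
  rw [card_subgroupOf hPC, S.card_P] at ha'
  have ha : a' = S.a := (Nat.pow_right_injective S.hM.1.two_le ha').symm
  set sC : C := ⟨(s : G), mem_centralizer_zpowers.2 (hc.map S.CZ.subtype)⟩ with hsC
  have hsCr : ¬ p ∣ orderOf sC := by
    rw [← Subgroup.orderOf_coe, hsC]
    show ¬ p ∣ orderOf (s : G)
    rwa [Subgroup.orderOf_coe]
  set uC : C := ⟨(u : G), hPC u.2⟩ with huC
  have hucent : ∀ c : C, Commute uC c := fun c =>
    Subtype.ext (mem_centralizer_zpowers.1 c.2)
  let res : C → ℂ := fun c => (η₀.1 : S.CZ → ℂ) ⟨(c : G), hCH c.2⟩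
  let θ : C → ℂ := fun c => res (uC * c)
  have hresc : IsCharacter C res :=
    Char.isCharacter_comp (Char.isCharacter_of_isIrr η₀.1.2) (Subgroup.inclusion hCH)
  have hθc : IsClassFunction C θ := fun x y => by
    show res (uC * (y * x * y⁻¹)) = res (uC * x)
    rw [← mul_assoc, ← mul_assoc, (hucent y).eq, mul_assoc y]
    exact Char.isClassFunction_of_isCharacter hresc _ y
  -- the part as a block part
  have hphi : S.secH (η₀.1 : S.CZ → ℂ) u s = blockPart fu θ sC := by
    set g' := mapBlock (centSub hCH (S.mem_centralizer_uH u)).symm fu with hg'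
    have hg'b : IsPBlock M g' := isPBlock_mapBlock _ hfu
    have hbar : pbar M (Subgroup.zpowers (S.uH u)) g' = below p M S.PH S.eH (S.uH u) := by
      refine emb_injective S.CZ ?_
      rw [S.emb_below hu, hbel, ← pbar_centSub hCH (S.mem_centralizer_uH u) g', hg', mapBlock_symm]
    haveI := Fintype.ofFinite
      (Subgroup.centralizer (Subgroup.zpowers (S.uH u) : Set S.CZ))
    rw [secH, ← hbar, show S.uH u * s = S.uH u *
      ((⟨s, mem_centralizer_zpowers.2 hc⟩ : Subgroup.centralizer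
        (Subgroup.zpowers (S.uH u) : Set S.CZ)) : S.CZ) from rfl,
      sec_eq_blockPart (Char.isClassFunction_of_isIrr η₀.1.2) hg'b,
      blockPart_eq_sum _ (isClassFunction_trans (Char.isClassFunction_of_isIrr η₀.1.2) _),
      blockPart_eq_sum _ hθc, ← Equiv.sum_comp (centSub hCH (S.mem_centralizer_uH u)).symm.toEquiv]
    refine Finset.sum_congr rfl fun k _ => ?_
    simp only [MulEquiv.toEquiv_eq_coe, EquivLike.coe_coe]
    rw [hg', blockCoeff_mapBlock]
    rfl
  obtain ⟨ξ1, hξ1⟩ := isPBlock_nonempty hfu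
  set C1 : ℂ := ∑ ξ : IrrCharacter C, if ξ ∈ fu then classInner θ (ξ : C → ℂ) else 0 with hC1
  have hval : blockPart fu θ sC = C1 * (ξ1 : C → ℂ) sC := by
    rw [blockPart_apply, hC1, Finset.sum_mul]
    refine Finset.sum_congr rfl fun ξ _ => ?_
    by_cases hξ : ξ ∈ fu
    · rw [if_pos hξ, if_pos hξ, Md.reg ξ hξ ξ1 hξ1 sC hsCr]
    · rw [if_neg hξ, if_neg hξ, zero_mul]
  have hint : IsIntegral ℤ C1 := by
    refine IsIntegral.sum _ fun ξ _ => ?_
    split_ifs
    swap
    · exact isIntegral_zero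
    set ω := (ξ : C → ℂ) uC⁻¹ / (ξ : C → ℂ) 1 with hω
    have hz : ∀ c : C, Commute uC⁻¹ c := fun c => (hucent c).inv_left
    obtain ⟨k, hk⟩ := Char.classInner_natCast hresc (Char.isCharacter_of_isIrr ξ.2)
    have h1 : classInner θ (ξ : C → ℂ) = conj ω * (k : ℂ) := by
      rw [← hk, classInner, classInner, mul_left_comm]
      congr 1
      rw [Finset.mul_sum, ← Equiv.sum_comp (Equiv.mulLeft uC⁻¹)]
      refine Finset.sum_congr rfl fun c _ => ?_
      rw [Equiv.coe_mulLeft]
      show res (uC * (uC⁻¹ * c)) * _ = _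
      rw [mul_inv_cancel_left, char_central_mul hz ξ, map_mul]
      ring
    rw [h1]
    exact ((isIntegral_central_ratio hz ξ).map (conj : ℂ →+* ℂ).toIntAlgHom).mul
      (by simpa using isIntegral_algebraMap (R := ℤ) (A := ℂ) (x := (k : ℤ)))
  refine ⟨by rw [hphi, hval]; exact hint.mul (isIntegral_irr ξ1 sC), ?_⟩
  set U : Finset (IrrCharacter C) := Finset.univ.filter (· ∈ fu) with hU
  have hUc : U.card = p ^ S.a := by
    rw [← ha, ← Md.card_b, hU, ← Fintype.card_subtype, ← Nat.card_eq_fintype_card]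
  have hsum : ∑ ξ ∈ U, (1 : ℂ) * (ξ : C → ℂ) sC = (p : ℂ) ^ S.a * (ξ1 : C → ℂ) sC := by
    rw [Finset.sum_congr rfl fun ξ hξ => by
      rw [one_mul, Md.reg ξ (Finset.mem_filter.1 hξ).2 ξ1 hξ1 sC hsCr], Finset.sum_const, hUc,
      nsmul_eq_mul, Nat.cast_pow]
  have hdiv := KleinSections.div_centralizer_mem S.hM U (fun _ => (1 : ℂ))
    (fun _ _ => isIntegral_one) (fun ξ => (ξ : C → ℂ))
    (fun ξ _ => Char.isCharacter_of_isIrr ξ.2) (fun g hg => ?_) hsCr
  swap
  · have h := Md.sum_singular g hg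
    rw [finsum_mem_eq_sum_ite] at h
    simpa [hU, Finset.sum_filter] using h
  have hcard : Nat.card (Subgroup.centralizer ({(u : G) * (s : G)} : Set G)) =
      Nat.card (Subgroup.centralizer ({sC} : Set C)) := by
    have hsub : ∀ g ∈ Subgroup.centralizer ({(u : G) * (s : G)} : Set G), g ∈ C := by
      intro g hg
      obtain ⟨h1, -⟩ := exists_pow_of_parts (p := p) (g := (u : G) * (s : G)) rfl
        (hc.map S.CZ.subtype) (Block.isPElem_of_mem S.hP u.2) (by rwa [Subgroup.orderOf_coe])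
      obtain ⟨i, hi⟩ := Subgroup.mem_zpowers_iff.1 h1
      rw [hCdef, mem_centralizer_zpowers, ← hi]
      exact (show Commute ((u : G) * (s : G)) g from
        (Subgroup.mem_centralizer_singleton_iff.1 hg).symm).zpow_left i
    refine Nat.card_congr
      { toFun := fun g => ⟨⟨g.1, hsub g.1 g.2⟩, Subgroup.mem_centralizer_singleton_iff.2
          (Subtype.ext ?_)⟩
        invFun := fun c => ⟨(c.1 : G), Subgroup.mem_centralizer_singleton_iff.2 ?_⟩
        left_inv := fun _ => rfl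
        right_inv := fun _ => rfl }
    · show g.1 * (s : G) = (s : G) * g.1
      have h1 := Subgroup.mem_centralizer_singleton_iff.1 g.2
      have h2 : Commute (u : G) g.1 := mem_centralizer_zpowers.1 (hsub g.1 g.2)
      rw [← mul_assoc g.1, ← h2.eq, mul_assoc (u : G), mul_assoc (u : G)] at h1
      exact mul_left_cancel h1
    · have h1 : (c.1 : G) * (s : G) = (s : G) * (c.1 : G) :=
        congrArg Subtype.val (Subgroup.mem_centralizer_singleton_iff.1 c.2)
      have h2 : Commute (u : G) (c.1 : G) := mem_centralizer_zpowers.1 c.1.2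
      rw [← mul_assoc, ← h2.eq, mul_assoc, h1, mul_assoc]
  rw [hcard, hphi, hval, mul_left_comm, ← hsum, mul_div_assoc]
  exact mul_mem (integral_mem_locRing hint) hdiv

end Setup

end Cfsg.Agent.Lib.CyclicDefect
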