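import Cfsg.Agent.Lib.Block.KleinSections
import Cfsg.Agent.Lib.CyclicDefect.Values

/-!
# Perfect isometries between blocks with the decomposition pattern of cyclic defect groups
-/

set_option autoImplicit false
set_option linter.unusedSectionVars false
set_option linter.style.haveILetI false
set_option maxHeartbeats 1000000

namespace Cfsg.Agent.Lib.CyclicDefect

open Cfsg Cfsg.Agent.Lib Cfsg.Agent.Lib.Block Cfsg.Agent.Lib.BrauerPairs Cfsg.Agent.Lib.Star
open scoped ComplexConjugate Classical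

universe u v w w'

variable {p : ℕ} {M : Ideal AlgInt} [M.IsPrime]

/-- The decomposition pattern of a block with cyclic defect group of order `q` and inertial
index `m`: exceptional characters with columns `T`, and the others with constant columns. -/
structure CycData (p : ℕ) (M : Ideal AlgInt) [M.IsPrime] {G : Type u} [Group G] [Finite G]
    (B : Set (IrrCharacter G)) (q m : ℕ) {r : ℕ} {U : Type w} (T : Fin r → U → ℂ) where
  μ : Fin r → IrrCharacter G
  δ : IrrCharacter G → ℤ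
  ε : ℤ
  inj : Function.Injective μ
  mem : ∀ t, μ t ∈ B
  sign_ε : ε = 1 ∨ ε = -1
  sign_δ : ∀ χ ∈ B, (∀ t, μ t ≠ χ) → δ χ = 1 ∨ δ χ = -1
  δ_out : ∀ χ, χ ∉ B → δ χ = 0
  δ_μ : ∀ t, δ (μ t) = 0
  card : Nat.card B = m + r
  reg : ∀ t (g : G), ¬ p ∣ orderOf g →
    (ε : ℂ) * (μ t : G → ℂ) g + ∑ᶠ χ : IrrCharacter G, (δ χ : ℂ) * (χ : G → ℂ) g = 0
  sumT : ∀ v, ∑ t, T t v = -1
  intT : ∀ t v, IsIntegral ℤ (T t v)
  expansion : ∀ x : G, p ∣ orderOf x → ∃ (s : Finset (KG M G)) (φ : s → ℂ) (v : s → U),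
    (∀ a, IsIntegral ℤ (φ a) ∧
      (q : ℂ) * φ a / (Nat.card (Subgroup.centralizer ({x} : Set G)) : ℂ) ∈ locRing M) ∧
    ∀ χ ∈ B, (χ : G → ℂ) x =
      ∑ a, φ a * (-(δ χ : ℂ) + ∑ t, if μ t = χ then (ε : ℂ) * T t (v a) else 0)

namespace CycData

variable {G : Type u} [Group G] [Finite G] {B : Set (IrrCharacter G)} {H : Type v} [Group H]
  [Finite H] {B' : Set (IrrCharacter H)} {q m r : ℕ} {U : Type w} {T : Fin r → U → ℂ}
  {U' : Type w'} {T' : Fin r → U' → ℂ}

theorem exists_match (D : CycData p M B q m T) (D' : CycData p M B' q m T') :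
    ∃ I : IrrCharacter H → IrrCharacter G, Set.BijOn I B' B ∧ (∀ t, I (D'.μ t) = D.μ t) ∧
      ∀ η ∈ B', (∀ t, D'.μ t ≠ η) → ∀ t, D.μ t ≠ I η := by
  haveI := Fintype.ofFinite (IrrCharacter G)
  haveI := Fintype.ofFinite (IrrCharacter H)
  set X : Finset (IrrCharacter G) :=
    Finset.univ.filter fun χ => χ ∈ B ∧ ∀ t, D.μ t ≠ χ with hX
  set X' : Finset (IrrCharacter H) :=
    Finset.univ.filter fun χ => χ ∈ B' ∧ ∀ t, D'.μ t ≠ χ with hX'
  have hXc : X.card = m := by
    have h1 : (Finset.univ.filter fun χ => χ ∈ B) = X ∪ Finset.univ.image D.μ := by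
      ext χ
      simp only [hX, Finset.mem_filter, Finset.mem_univ, true_and, Finset.mem_union, Finset.mem_image]
      refine ⟨fun h => ?_, fun h => h.elim And.left fun ⟨t, e⟩ => e ▸ D.mem t⟩
      by_cases he : ∃ t, D.μ t = χ
      · exact Or.inr he
      · exact Or.inl ⟨h, fun t e => he ⟨t, e⟩⟩
    have h2 := congrArg Finset.card h1
    rw [Finset.card_union_of_disjoint (Finset.disjoint_left.2 fun χ hχ hχ' => by
        obtain ⟨t, -, e⟩ := Finset.mem_image.1 hχ'
        exact (Finset.mem_filter.1 hχ).2.2 t e),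
      Finset.card_image_of_injective _ D.inj, Finset.card_univ, Fintype.card_fin,
      ← Fintype.card_subtype, ← Nat.card_eq_fintype_card] at h2
    have h3 : Nat.card {χ // χ ∈ B} = m + r := D.card
    omega
  have hXc' : X'.card = m := by
    have h1 : (Finset.univ.filter fun χ => χ ∈ B') = X' ∪ Finset.univ.image D'.μ := by
      ext χ
      simp only [hX', Finset.mem_filter, Finset.mem_univ, true_and, Finset.mem_union, Finset.mem_image]
      refine ⟨fun h => ?_, fun h => h.elim And.left fun ⟨t, e⟩ => e ▸ D'.mem t⟩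
      by_cases he : ∃ t, D'.μ t = χ
      · exact Or.inr he
      · exact Or.inl ⟨h, fun t e => he ⟨t, e⟩⟩
    have h2 := congrArg Finset.card h1
    rw [Finset.card_union_of_disjoint (Finset.disjoint_left.2 fun χ hχ hχ' => by
        obtain ⟨t, -, e⟩ := Finset.mem_image.1 hχ'
        exact (Finset.mem_filter.1 hχ).2.2 t e),
      Finset.card_image_of_injective _ D'.inj, Finset.card_univ, Fintype.card_fin,
      ← Fintype.card_subtype, ← Nat.card_eq_fintype_card] at h2
    have h3 : Nat.card {χ // χ ∈ B'} = m + r := D'.card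
    omega
  let E : X' ≃ X := Finset.equivOfCardEq (hXc'.trans hXc.symm)
  let I : IrrCharacter H → IrrCharacter G := fun η =>
    if h : η ∈ X' then (E ⟨η, h⟩).1
    else if h' : ∃ t, D'.μ t = η then D.μ h'.choose else ⟨_, Char.isIrrCharacter_one⟩
  have hIX : ∀ η (h : η ∈ X'), I η = (E ⟨η, h⟩).1 := fun η h => dif_pos h
  have hIμ : ∀ t, I (D'.μ t) = D.μ t := by
    intro t
    have hn : D'.μ t ∉ X' := fun h => (Finset.mem_filter.1 h).2.2 t rfl
    have hex : ∃ t', D'.μ t' = D'.μ t := ⟨t, rfl⟩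
    simp only [I, dif_neg hn, dif_pos hex]
    rw [D'.inj hex.choose_spec]
  have hmem : ∀ η ∈ B', η ∈ X' ∨ ∃ t, D'.μ t = η := fun η hη => by
    by_cases he : ∃ t, D'.μ t = η
    · exact Or.inr he
    · exact Or.inl (Finset.mem_filter.2 ⟨Finset.mem_univ _, hη, fun t e => he ⟨t, e⟩⟩)
  have hout : ∀ η (h : η ∈ X'), I η ∈ B ∧ ∀ t, D.μ t ≠ I η := fun η h => by
    rw [hIX η h]
    exact (Finset.mem_filter.1 (E ⟨η, h⟩).2).2
  refine ⟨I, ⟨fun η hη => ?_, fun η hη η' hη' he => ?_, fun χ hχ => ?_⟩, hIμ, fun η hη hne =>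
    (hout η (Finset.mem_filter.2 ⟨Finset.mem_univ _, hη, hne⟩)).2⟩
  · rcases hmem η hη with h | ⟨t, rfl⟩
    · exact (hout η h).1
    · rw [hIμ]; exact D.mem t
  · rcases hmem η hη with h | ⟨t, rfl⟩ <;> rcases hmem η' hη' with h' | ⟨t', rfl⟩
    · rw [hIX η h, hIX η' h'] at he
      exact congrArg Subtype.val (E.injective (Subtype.ext he))
    · exact absurd (by rw [he, hIμ]) ((hout η h).2 t')
    · exact absurd (by rw [← he, hIμ]) ((hout η' h').2 t)
    · rw [hIμ, hIμ] at he
      rw [D.inj he]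
  · by_cases he : ∃ t, D.μ t = χ
    · obtain ⟨t, rfl⟩ := he
      exact ⟨D'.μ t, D'.mem t, hIμ t⟩
    · have hχX : χ ∈ X := Finset.mem_filter.2 ⟨Finset.mem_univ _, hχ, fun t e => he ⟨t, e⟩⟩
      refine ⟨(E.symm ⟨χ, hχX⟩).1, ((Finset.mem_filter.1 (E.symm ⟨χ, hχX⟩).2).2).1, ?_⟩
      rw [hIX _ (E.symm ⟨χ, hχX⟩).2]
      simp

/-- Sums over a block split along the pattern. -/
theorem sum_split [Fintype (IrrCharacter H)] (D' : CycData p M B' q m T')
    (S : Finset (IrrCharacter H)) (hS : ∀ η, η ∈ S ↔ η ∈ B') (f : IrrCharacter H → ℂ) :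
    ∑ η ∈ S, f η = (∑ t, f (D'.μ t)) + ∑ η ∈ S.filter (fun η => ∀ t, D'.μ t ≠ η), f η := by
  rw [← Finset.sum_filter_add_sum_filter_not S (fun η => ∀ t, D'.μ t ≠ η) f, add_comm]
  congr 1
  rw [← Finset.sum_image (f := f) (g := D'.μ) (fun _ _ _ _ e => D'.inj e)]
  refine Finset.sum_congr ?_ fun _ _ => rfl
  ext η
  simp only [Finset.mem_filter, Finset.mem_image, Finset.mem_univ, true_and, not_forall, not_not]
  exact ⟨fun h => h.2, fun ⟨t, e⟩ => ⟨(hS η).2 (e ▸ D'.mem t), t, e⟩⟩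

/-- Two blocks with matching patterns are perfectly isometric. -/
theorem exists_isometry (hM : IsPModular p M) (D : CycData p M B q m T)
    (D' : CycData p M B' q m T')
    (hW : ∀ u v, ∃ n : ℤ, ∑ t, T t u * T' t v + (m : ℂ) = (q : ℂ) * n) :
    ∃ (I : IrrCharacter H → IrrCharacter G) (ε : IrrCharacter H → ℤ),
      IsPerfectIsometry p M B' B I ε ∧ (∀ t, ε (D'.μ t) = D.ε * D'.ε) ∧
        (m = 1 → 0 < r → ∀ η ∈ B', ε η = D.ε * D'.ε) := by
  haveI : Fact p.Prime := ⟨hM.1⟩
  haveI := Fintype.ofFinite (IrrCharacter G)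
  haveI := Fintype.ofFinite (IrrCharacter H)
  obtain ⟨I, hI, hIμ, hIX⟩ := D.exists_match D'
  set εI : IrrCharacter H → ℤ := fun η =>
    if ∃ t, D'.μ t = η then D.ε * D'.ε else D.δ (I η) * D'.δ η with hεI
  have hεμ : ∀ t, εI (D'.μ t) = D.ε * D'.ε := fun t => if_pos ⟨t, rfl⟩
  set S : Finset (IrrCharacter H) := Finset.univ.filter (· ∈ B') with hSdef
  have hS : ∀ η, η ∈ S ↔ η ∈ B' := fun η => by simp [hSdef]
  set X' := S.filter (fun η => ∀ t, D'.μ t ≠ η) with hX'
  have hX'm : ∀ η ∈ X', η ∈ B' ∧ ∀ t, D'.μ t ≠ η := fun η hη =>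
    ⟨(hS η).1 (Finset.mem_filter.1 hη).1, (Finset.mem_filter.1 hη).2⟩
  have hεX : ∀ η ∈ X', εI η = D.δ (I η) * D'.δ η := fun η hη =>
    if_neg fun ⟨t, e⟩ => (hX'm η hη).2 t e
  have hpm : ∀ {x y : ℤ}, (x = 1 ∨ x = -1) → (y = 1 ∨ y = -1) → x * y = 1 ∨ x * y = -1 := by
    rintro x y (rfl | rfl) (rfl | rfl) <;> simp
  have hδ' : ∀ η ∈ X', D'.δ η = 1 ∨ D'.δ η = -1 := fun η hη =>
    D'.sign_δ η (hX'm η hη).1 (hX'm η hη).2
  have hδ : ∀ η ∈ X', D.δ (I η) = 1 ∨ D.δ (I η) = -1 := fun η hη =>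
    D.sign_δ _ (hI.mapsTo (hX'm η hη).1) (hIX η (hX'm η hη).1 (hX'm η hη).2)
  suffices hperf : IsPerfectIsometry p M B' B I εI by
    refine ⟨I, εI, hperf, hεμ, fun hm hr η hη => ?_⟩
    by_cases he : ∃ t, D'.μ t = η
    · exact if_pos he
    have hη' : η ∈ X' := Finset.mem_filter.2 ⟨(hS η).2 hη, fun t e => he ⟨t, e⟩⟩
    have key : ∀ {a b : ℤ} {x y : ℕ}, (a = 1 ∨ a = -1) → (b = 1 ∨ b = -1) → 0 < x → 0 < y →
        (a : ℂ) * (x : ℂ) + (b : ℂ) * (y : ℂ) = 0 → b = -a := by
      intro a b x y ha hb hx hy h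
      have h1 : a * (x : ℤ) + b * (y : ℤ) = 0 := by exact_mod_cast h
      rcases ha with rfl | rfl <;> rcases hb with rfl | rfl <;> omega
    have hone : ∀ {X : Finset (IrrCharacter H)}, X.card = 1 → η ∈ X → X = {η} := fun hc hm' => by
      obtain ⟨z, rfl⟩ := Finset.card_eq_one.1 hc
      rw [Finset.mem_singleton.1 hm']
    let t₀ : Fin r := ⟨0, hr⟩
    have h1 : D'.δ η = -D'.ε := by
      have h := D'.reg t₀ 1 Block.regular_one
      rw [finsum_eq_sum_of_fintype, ← Finset.sum_subset (Finset.subset_univ S) (fun η _ hη => by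
        rw [D'.δ_out η fun h => hη ((hS η).2 h), Int.cast_zero, zero_mul]),
        D'.sum_split S hS, ← hX'] at h
      have hc : X'.card = 1 := by
        have h2 : S.card = m + r := by
          rw [← D'.card, hSdef, ← Fintype.card_subtype, ← Nat.card_eq_fintype_card]
        have h3 := D'.sum_split S hS (fun _ => (1 : ℂ))
        simp only [Finset.sum_const, Finset.card_univ, Fintype.card_fin, nsmul_eq_mul, mul_one] at h3
        rw [← hX'] at h3
        have h4 : S.card = r + X'.card := by exact_mod_cast h3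
        omega
      simp only [D'.δ_μ, Int.cast_zero, zero_mul, Finset.sum_const_zero, zero_add, hone hc hη',
        Finset.sum_singleton, irr_one_eq_natCast] at h
      exact key D'.sign_ε (hδ' η hη') (charDegree_pos _) (charDegree_pos _) h
    have h2 : D.δ (I η) = -D.ε := by
      set SB : Finset (IrrCharacter G) := Finset.univ.filter (· ∈ B) with hSB
      have hne := hIX η hη (hX'm η hη').2
      have hSBc : SB.card = m + r := by
        rw [← D.card, hSB, ← Fintype.card_subtype, ← Nat.card_eq_fintype_card]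
      have hSBeq : SB = insert (I η) (Finset.univ.image D.μ) := by
        refine (Finset.eq_of_subset_of_card_le ?_ ?_).symm
        · intro χ hχ
          rcases Finset.mem_insert.1 hχ with rfl | hχ
          · simpa [hSB] using hI.mapsTo hη
          · obtain ⟨t, -, rfl⟩ := Finset.mem_image.1 hχ
            simpa [hSB] using D.mem t
        · rw [Finset.card_insert_of_notMem (by simpa using hne),
            Finset.card_image_of_injective _ D.inj, Finset.card_univ, Fintype.card_fin, hSBc]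
          omega
      have h := D.reg t₀ 1 Block.regular_one
      rw [finsum_eq_sum_of_fintype, ← Finset.sum_subset (Finset.subset_univ SB) (fun χ _ hχ => by
        rw [D.δ_out χ fun h => hχ (by simp [hSB, h]), Int.cast_zero, zero_mul]), hSBeq,
        Finset.sum_insert (by simpa using hne), Finset.sum_image fun _ _ _ _ e => D.inj e] at h
      simp only [D.δ_μ, Int.cast_zero, zero_mul, Finset.sum_const_zero, add_zero,
        irr_one_eq_natCast] at h
      exact key D.sign_ε (hδ η hη') (charDegree_pos _) (charDegree_pos _) h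
    rw [hεX η hη', h1, h2]
    ring
  refine ⟨hI, fun η hη => ?_, ?_⟩
  · by_cases he : ∃ t, D'.μ t = η
    · rw [show εI η = D.ε * D'.ε from if_pos he]
      exact hpm D.sign_ε D'.sign_ε
    · have hη' : η ∈ X' := Finset.mem_filter.2 ⟨(hS η).2 hη, fun t e => he ⟨t, e⟩⟩
      rw [hεX η hη']
      exact hpm (hδ η hη') (hδ' η hη')
  have hμ : ∀ x y, signedBijectionKernel B' I εI x y =
      ∑ η ∈ S, (εI η : ℂ) * (I η : G → ℂ) x * (η : H → ℂ) y := fun x y => by
    rw [signedBijectionKernel, show B' = (S : Set (IrrCharacter H)) from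
      Set.ext fun η => (hS η).symm]
    exact finsum_mem_coe_finset _ S
  -- the columns
  set w : IrrCharacter G → U → ℂ := fun χ v =>
    -(D.δ χ : ℂ) + ∑ t, if D.μ t = χ then (D.ε : ℂ) * T t v else 0 with hw
  set w' : IrrCharacter H → U' → ℂ := fun χ v =>
    -(D'.δ χ : ℂ) + ∑ t, if D'.μ t = χ then (D'.ε : ℂ) * T' t v else 0 with hw'
  have hwμ : ∀ t v, w (D.μ t) v = (D.ε : ℂ) * T t v := fun t v => by
    simp [hw, D.δ_μ t, D.inj.eq_iff, eq_comm]
  have hwμ' : ∀ t v, w' (D'.μ t) v = (D'.ε : ℂ) * T' t v := fun t v => by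
    simp [hw', D'.δ_μ t, D'.inj.eq_iff, eq_comm]
  have hwX : ∀ η ∈ X', ∀ v, w (I η) v = -(D.δ (I η) : ℂ) := fun η hη v => by
    simp [hw, hIX η (hX'm η hη).1 (hX'm η hη).2]
  have hwX' : ∀ η ∈ X', ∀ v, w' η v = -(D'.δ η : ℂ) := fun η hη v => by
    simp [hw', (hX'm η hη).2]
  have hsq : ∀ {z : ℤ}, (z = 1 ∨ z = -1) → (z : ℂ) * (z : ℂ) = 1 := by
    rintro z (rfl | rfl) <;> simp
  have hXcard : X'.card = m := by
    have h := D'.sum_split S hS (fun _ => (1 : ℂ))
    simp only [Finset.sum_const, Finset.card_univ, Fintype.card_fin, nsmul_eq_mul, mul_one] at h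
    rw [← hX'] at h
    have h2 : S.card = m + r := by
      rw [← D'.card, hSdef, ← Fintype.card_subtype, ← Nat.card_eq_fintype_card]
    have h3 : (S.card : ℂ) = ((r + X'.card : ℕ) : ℂ) := by push_cast; exact h
    have h4 : S.card = r + X'.card := by exact_mod_cast h3
    omega
  -- the regular relations
  set R' : H → ℂ := fun y => ∑ η ∈ X', (D'.δ η : ℂ) * (η : H → ℂ) y with hR'
  have hreg' : ∀ t (y : H), ¬ p ∣ orderOf y → (D'.ε : ℂ) * (D'.μ t : H → ℂ) y = -R' y := by
    intro t y hy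
    have h := D'.reg t y hy
    rw [finsum_eq_sum_of_fintype, ← Finset.sum_subset (Finset.subset_univ S) (fun η _ hη => by
      rw [D'.δ_out η fun h => hη ((hS η).2 h), Int.cast_zero, zero_mul]),
      D'.sum_split S hS] at h
    simp only [D'.δ_μ, Int.cast_zero, zero_mul, Finset.sum_const_zero, zero_add] at h
    exact eq_neg_of_add_eq_zero_left h
  set R : G → ℂ := fun x => ∑ η ∈ X', (D.δ (I η) : ℂ) * (I η : G → ℂ) x with hR
  have hreg : ∀ t (x : G), ¬ p ∣ orderOf x → (D.ε : ℂ) * (D.μ t : G → ℂ) x = -R x := by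
    intro t x hx
    have h := D.reg t x hx
    set SB : Finset (IrrCharacter G) := Finset.univ.filter (· ∈ B) with hSB
    rw [finsum_eq_sum_of_fintype, ← Finset.sum_subset (Finset.subset_univ SB) (fun χ _ hχ => by
      rw [D.δ_out χ fun h => hχ (by simp [hSB, h]), Int.cast_zero, zero_mul])] at h
    have h2 : ∑ χ ∈ SB, (D.δ χ : ℂ) * (χ : G → ℂ) x =
        ∑ η ∈ S, (D.δ (I η) : ℂ) * (I η : G → ℂ) x := by
      symm
      refine Finset.sum_nbij I (fun η hη => ?_) (fun a ha b hb => hI.injOn ((hS a).1 ha) ((hS b).1 hb))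
        (fun χ hχ => ?_) fun η _ => rfl
      · simpa [hSB] using hI.mapsTo ((hS η).1 hη)
      · obtain ⟨η, hη, e⟩ := hI.surjOn (show χ ∈ B by simpa [hSB] using hχ)
        exact ⟨η, (hS η).2 hη, e⟩
    rw [h2, D'.sum_split S hS] at h
    simp only [hIμ, D.δ_μ, Int.cast_zero, zero_mul, Finset.sum_const_zero, zero_add] at h
    exact eq_neg_of_add_eq_zero_left h
  -- mixed values vanish
  have h10 : ∀ x y, p ∣ orderOf x → ¬ p ∣ orderOf y →
      ∑ η ∈ S, (εI η : ℂ) * (I η : G → ℂ) x * (η : H → ℂ) y = 0 := by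
    intro x y hx hy
    obtain ⟨s, φ, v, -, hexp⟩ := D.expansion x hx
    rw [Finset.sum_congr rfl (g := fun η => ∑ a, φ a * ((εI η : ℂ) * w (I η) (v a) * (η : H → ℂ) y))
      fun η hη => by
        rw [hexp _ (hI.mapsTo ((hS η).1 hη)), Finset.mul_sum, Finset.sum_mul]
        exact Finset.sum_congr rfl fun a _ => by simp only [hw]; ring, Finset.sum_comm]
    refine Finset.sum_eq_zero fun a _ => ?_
    rw [← Finset.mul_sum, D'.sum_split S hS, ← hX']
    have h1 : ∀ t, (εI (D'.μ t) : ℂ) * w (I (D'.μ t)) (v a) * (D'.μ t : H → ℂ) y =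
        T t (v a) * -R' y := fun t => by
      rw [hεμ, hIμ, hwμ, ← hreg' t y hy, Int.cast_mul]
      linear_combination (T t (v a) * ((D'.ε : ℂ) * (D'.μ t : H → ℂ) y)) * hsq D.sign_ε
    have h2 : ∀ η ∈ X', (εI η : ℂ) * w (I η) (v a) * (η : H → ℂ) y =
        -((D'.δ η : ℂ) * (η : H → ℂ) y) := fun η hη => by
      rw [hεX η hη, hwX η hη, Int.cast_mul]
      linear_combination (-((D'.δ η : ℂ) * (η : H → ℂ) y)) * hsq (hδ η hη)
    rw [Finset.sum_congr rfl fun t _ => h1 t, ← Finset.sum_mul, D.sumT, Finset.sum_congr rfl h2,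
      Finset.sum_neg_distrib]
    ring
  have h01 : ∀ x y, ¬ p ∣ orderOf x → p ∣ orderOf y →
      ∑ η ∈ S, (εI η : ℂ) * (I η : G → ℂ) x * (η : H → ℂ) y = 0 := by
    intro x y hx hy
    obtain ⟨s, φ, v, -, hexp⟩ := D'.expansion y hy
    rw [Finset.sum_congr rfl (g := fun η => ∑ a, φ a * ((εI η : ℂ) * w' η (v a) * (I η : G → ℂ) x))
      fun η hη => by
        rw [hexp _ ((hS η).1 hη), Finset.mul_sum]
        exact Finset.sum_congr rfl fun a _ => by simp only [hw']; ring, Finset.sum_comm]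
    refine Finset.sum_eq_zero fun a _ => ?_
    rw [← Finset.mul_sum, D'.sum_split S hS, ← hX']
    have h1 : ∀ t, (εI (D'.μ t) : ℂ) * w' (D'.μ t) (v a) * (I (D'.μ t) : G → ℂ) x =
        T' t (v a) * -R x := fun t => by
      rw [hεμ, hIμ, hwμ', ← hreg t x hx, Int.cast_mul]
      linear_combination (T' t (v a) * ((D.ε : ℂ) * (D.μ t : G → ℂ) x)) * hsq D'.sign_ε
    have h2 : ∀ η ∈ X', (εI η : ℂ) * w' η (v a) * (I η : G → ℂ) x =
        -((D.δ (I η) : ℂ) * (I η : G → ℂ) x) := fun η hη => by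
      rw [hεX η hη, hwX' η hη, Int.cast_mul]
      linear_combination (-((D.δ (I η) : ℂ) * (I η : G → ℂ) x)) * hsq (hδ' η hη)
    rw [Finset.sum_congr rfl fun t _ => h1 t, ← Finset.sum_mul, D'.sumT, Finset.sum_congr rfl h2,
      Finset.sum_neg_distrib]
    ring
  have hint : ∀ (z : ℤ) {c : ℂ}, IsIntegral ℤ c → IsIntegral ℤ ((z : ℂ) * c) := fun z c hc =>
    (isIntegral_intCast z).mul hc
  -- both singular
  have h11 : ∀ x y, p ∣ orderOf x → p ∣ orderOf y →
      (∑ η ∈ S, (εI η : ℂ) * (I η : G → ℂ) x * (η : H → ℂ) y) /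
          (Nat.card (Subgroup.centralizer ({x} : Set G)) : ℂ) ∈ locRing M ∧
      (∑ η ∈ S, (εI η : ℂ) * (I η : G → ℂ) x * (η : H → ℂ) y) /
          (Nat.card (Subgroup.centralizer ({y} : Set H)) : ℂ) ∈ locRing M := by
    intro x y hx hy
    obtain ⟨s, φ, v, hφ, hexp⟩ := D.expansion x hx
    obtain ⟨s', φ', v', hφ', hexp'⟩ := D'.expansion y hy
    choose n hn using fun a b => hW (v a) (v' b)
    have key : ∑ η ∈ S, (εI η : ℂ) * (I η : G → ℂ) x * (η : H → ℂ) y =
        ∑ a, ∑ b, φ a * φ' b * ((q : ℂ) * n a b) := by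
      rw [Finset.sum_congr rfl (g := fun η => ∑ a, ∑ b,
          φ a * φ' b * ((εI η : ℂ) * w (I η) (v a) * w' η (v' b))) fun η hη => by
          rw [hexp _ (hI.mapsTo ((hS η).1 hη)), hexp' _ ((hS η).1 hη), mul_assoc,
            Finset.sum_mul_sum, Finset.mul_sum]
          refine Finset.sum_congr rfl fun a _ => ?_
          rw [Finset.mul_sum]
          exact Finset.sum_congr rfl fun b _ => by simp only [hw, hw']; ring, Finset.sum_comm]
      refine Finset.sum_congr rfl fun a _ => ?_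
      rw [Finset.sum_comm]
      refine Finset.sum_congr rfl fun b _ => ?_
      rw [← Finset.mul_sum, D'.sum_split S hS, ← hX', ← hn a b]
      congr 2
      · refine Finset.sum_congr rfl fun t _ => ?_
        rw [hεμ, hIμ, hwμ, hwμ', Int.cast_mul]
        linear_combination (T t (v a) * T' t (v' b)) *
          ((D'.ε : ℂ) * (D'.ε : ℂ) * hsq D.sign_ε + hsq D'.sign_ε)
      · rw [Finset.sum_congr rfl (g := fun _ => (1 : ℂ)) fun η hη => by
          rw [hεX η hη, hwX η hη, hwX' η hη, Int.cast_mul]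
          linear_combination (D'.δ η : ℂ) * (D'.δ η : ℂ) * hsq (hδ η hη) + hsq (hδ' η hη),
          Finset.sum_const, hXcard, nsmul_eq_mul, mul_one]
    rw [key]
    constructor
    · rw [Finset.sum_div]
      refine sum_mem fun a _ => ?_
      rw [Finset.sum_div]
      refine sum_mem fun b _ => ?_
      rw [show φ a * φ' b * ((q : ℂ) * n a b) /
          (Nat.card (Subgroup.centralizer ({x} : Set G)) : ℂ) =
        (q : ℂ) * φ a / (Nat.card (Subgroup.centralizer ({x} : Set G)) : ℂ) *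
          ((n a b : ℂ) * φ' b) by ring]
      exact mul_mem (hφ a).2 (integral_mem_locRing (hint _ (hφ' b).1))
    · rw [Finset.sum_div]
      refine sum_mem fun a _ => ?_
      rw [Finset.sum_div]
      refine sum_mem fun b _ => ?_
      rw [show φ a * φ' b * ((q : ℂ) * n a b) /
          (Nat.card (Subgroup.centralizer ({y} : Set H)) : ℂ) =
        (q : ℂ) * φ' b / (Nat.card (Subgroup.centralizer ({y} : Set H)) : ℂ) *
          ((n a b : ℂ) * φ a) by ring]
      exact mul_mem (hφ' b).2 (integral_mem_locRing (hint _ (hφ a).1))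
  intro x y
  rw [hμ x y]
  by_cases hx : p ∣ orderOf x
  · by_cases hy : p ∣ orderOf y
    · exact ⟨(h11 x y hx hy).1, (h11 x y hx hy).2,
        Or.inl ⟨fun h => absurd hx h, fun h => absurd hy h⟩⟩
    · rw [h10 x y hx hy, zero_div, zero_div]
      exact ⟨(zero_mem (locRing M) : (0:ℂ) ∈ locRing M), (zero_mem (locRing M) : (0:ℂ) ∈ locRing M), Or.inr rfl⟩
  · by_cases hy : p ∣ orderOf y
    · rw [h01 x y hx hy, zero_div, zero_div]
      exact ⟨(zero_mem (locRing M) : (0:ℂ) ∈ locRing M), (zero_mem (locRing M) : (0:ℂ) ∈ locRing M), Or.inr rfl⟩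
    · refine ⟨?_, ?_, Or.inl ⟨fun _ => hy, fun _ => hx⟩⟩
      · rw [Finset.sum_congr rfl fun η _ => show (εI η : ℂ) * (I η : G → ℂ) x * (η : H → ℂ) y =
          ((εI η : ℂ) * (η : H → ℂ) y) * (I η : G → ℂ) x by ring]
        refine KleinSections.div_centralizer_mem hM S _ (fun η _ => hint _ (isIntegral_irr η y))
          (fun η => (I η : G → ℂ)) (fun η _ => Char.isCharacter_of_isIrr (I η).2) (fun g hg => ?_) hx
        rw [← h10 g y hg hy]
        exact Finset.sum_congr rfl fun η _ => by ring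
      · exact KleinSections.div_centralizer_mem hM S _
          (fun η _ => hint _ (isIntegral_irr (I η) x)) (fun η => (η : H → ℂ))
          (fun η _ => Char.isCharacter_of_isIrr η.2) (fun g hg => h01 x g hx hg) hy

end CycData

end Cfsg.Agent.Lib.CyclicDefect
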