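import Cfsg.Agent.Lib.CyclicDefect.Values
import Cfsg.Agent.Lib.CyclicDefect.Structure
import Cfsg.Agent.Lib.CyclicDefect.Isometry

/-!
# The generalised decomposition numbers of a block with cyclic defect group
-/

set_option autoImplicit false
set_option linter.unusedSectionVars false
set_option linter.style.haveILetI false
set_option maxHeartbeats 1000000

namespace Cfsg.Agent.Lib.CyclicDefect

open Cfsg Cfsg.Agent.Lib Cfsg.Agent.Lib.Block Cfsg.Agent.Lib.BrauerPairs Cfsg.Agent.Lib.Star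
open scoped ComplexConjugate Classical

universe u

variable {p : ℕ} {M : Ideal AlgInt} [M.IsPrime] {G : Type u} [Group G] [Finite G]
  {B : Set (IrrCharacter G)} {P : Subgroup G} {e : CBlock P}

theorem sum_range_shift {A : Type*} [AddCommGroup A] {m : ℕ} (f : ℕ → A)
    (hf : ∀ i, f (i + m) = f i) (j : ℕ) :
    ∑ i ∈ Finset.range m, f (j + i) = ∑ i ∈ Finset.range m, f i := by
  induction j with
  | zero => simp
  | succ j ih =>
    have h1 := Finset.sum_range_succ (fun i => f (j + i)) m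
    have h2 := Finset.sum_range_succ' (fun i => f (j + i)) m
    rw [h1] at h2
    simp only [hf, add_zero] at h2
    rw [← ih]
    refine (add_right_cancel (b := f j) ?_).symm
    rw [h2]
    congr 1
    exact Finset.sum_congr rfl fun i _ => by rw [show j + (i + 1) = j + 1 + i by omega]

/-- Conjugate elements have centralisers of the same order. -/
theorem card_centralizer_conj (g x : G) :
    Nat.card (Subgroup.centralizer ({g * x * g⁻¹} : Set G)) =
      Nat.card (Subgroup.centralizer ({x} : Set G)) := by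
  symm
  refine Nat.card_congr ((MulAut.conj g).toEquiv.subtypeEquiv fun y => ?_)
  show y ∈ Subgroup.centralizer ({x} : Set G) ↔
    g * y * g⁻¹ ∈ Subgroup.centralizer ({g * x * g⁻¹} : Set G)
  rw [Subgroup.mem_centralizer_singleton_iff, Subgroup.mem_centralizer_singleton_iff,
    show g * y * g⁻¹ * (g * x * g⁻¹) = g * (y * x) * g⁻¹ by group,
    show g * x * g⁻¹ * (g * y * g⁻¹) = g * (x * y) * g⁻¹ by group, mul_left_inj, mul_right_inj]

namespace Setup

variable (S : Setup p M B P e)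

/-- The inertial action on the linear characters of the defect group. -/
noncomputable abbrev act (j : ℕ) (ν : P →* ℂˣ) : P →* ℂˣ :=
  ν.comp (S.pconj j).symm.toMonoidHom

theorem pconj_symm_add (i j : ℕ) (u : P) :
    (S.pconj (j + i)).symm u = (S.pconj j).symm ((S.pconj i).symm u) := by
  rw [MulEquiv.symm_apply_eq, add_comm j i, ← S.pconj_add, MulEquiv.apply_symm_apply,
    MulEquiv.apply_symm_apply]

theorem pconj_symm_m (j : ℕ) (u : P) : (S.pconj (j + S.m)).symm u = (S.pconj j).symm u := by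
  rw [S.pconj_symm_add]
  congr 1
  rw [MulEquiv.symm_apply_eq, S.pconj_m]

theorem act_act (i j : ℕ) (ν : P →* ℂˣ) : S.act i (S.act j ν) = S.act (j + i) ν :=
  MonoidHom.ext fun u => by
    show ν ((S.pconj j).symm ((S.pconj i).symm u)) = ν ((S.pconj (j + i)).symm u)
    rw [S.pconj_symm_add]

theorem act_add_m (j : ℕ) (ν : P →* ℂˣ) : S.act (j + S.m) ν = S.act j ν :=
  MonoidHom.ext fun u => by
    show ν ((S.pconj (j + S.m)).symm u) = ν ((S.pconj j).symm u)
    rw [S.pconj_symm_m]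

theorem act_zero (ν : P →* ℂˣ) : S.act 0 ν = ν :=
  MonoidHom.ext fun u => congrArg ν ((S.pconj 0).symm_apply_eq.2 (Subtype.ext (by
    show (u : G) = S.n ^ 0 * (u : G) * (S.n ^ 0)⁻¹
    simp)))

/-- Representatives of the orbits of the nontrivial linear characters. -/
structure IsDualReps (lamt : Fin S.r → (P →* ℂˣ)) : Prop where
  ne : ∀ t, lamt t ≠ 1
  free : ∀ t t' j, j < S.m → S.act j (lamt t) = lamt t' → t = t' ∧ j = 0
  all : ∀ ν, ν ≠ 1 → ∃ t j, j < S.m ∧ S.act j (lamt t) = ν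

theorem exists_dualReps : ∃ (η₀ : S.f) (lamt : Fin S.r → (P →* ℂˣ)),
    S.perm η₀ = η₀ ∧ S.IsDualReps lamt := by
  obtain ⟨η₀, R, h0, hne, hfree, hall⟩ := S.exists_base
  let E := Equiv.ofBijective _ (S.eta_bijective η₀)
  have hE : ∀ t, S.eta η₀ (E.symm (R t)) = R t := fun t => E.apply_symm_apply (R t)
  refine ⟨η₀, fun t => E.symm (R t), h0, fun t h => hne t ?_, fun t t' j hj h => ?_, fun ν hν => ?_⟩
  · rw [← hE t, h, S.eta_one]
  · refine hfree t t' j hj ?_
    rw [← hE t, S.perm_pow_eta η₀ h0, ← hE t', ← h]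
  · obtain ⟨t, j, htj⟩ := hall (S.eta η₀ ν) fun h => hν (S.eta_injective η₀
      (h.trans (S.eta_one η₀).symm))
    refine ⟨t, j % S.m, Nat.mod_lt _ S.m_pos, S.eta_injective η₀ ?_⟩
    rw [← htj, ← pow_mod_eq_self_of_pow S.perm S.perm_m j, ← S.perm_pow_eta η₀ h0, hE]
where
  pow_mod_eq_self_of_pow (f : Equiv.Perm S.f) (h : f ^ S.m = 1) (j : ℕ) :
      f ^ (j % S.m) = f ^ j := by
    conv_rhs => rw [← Nat.mod_add_div j S.m, pow_add, pow_mul, h, one_pow, mul_one]

theorem isReps_eta {η₀ : S.f} (h0 : S.perm η₀ = η₀) {lamt : Fin S.r → (P →* ℂˣ)}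
    (hl : S.IsDualReps lamt) : S.IsReps η₀ fun t => S.eta η₀ (lamt t) := by
  refine ⟨h0, fun t h => hl.ne t (S.eta_injective η₀ (h.trans (S.eta_one η₀).symm)),
    fun t t' j hj h => hl.free t t' j hj (S.eta_injective η₀ ?_), fun η hη => ?_⟩
  · rw [← S.perm_pow_eta η₀ h0]
    exact h
  · obtain ⟨ν, rfl⟩ := (S.eta_bijective η₀).2 η
    obtain ⟨t, j, -, h⟩ := hl.all ν fun h => hη (by rw [h, S.eta_one])
    exact ⟨t, j, by rw [S.perm_pow_eta η₀ h0]; exact congrArg _ h⟩

variable {lamt : Fin S.r → (P →* ℂˣ)}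

theorem sum_dualReps [Fintype (P →* ℂˣ)] (hl : S.IsDualReps lamt) (f : (P →* ℂˣ) → ℂ) :
    ∑ t, ∑ j ∈ Finset.range S.m, f (S.act j (lamt t)) = (∑ ν, f ν) - f 1 := by
  rw [← Finset.sum_erase_eq_sub (Finset.mem_univ _), ← Finset.sum_product']
  refine Finset.sum_bij (fun tj _ => S.act tj.2 (lamt tj.1)) (fun tj _ => ?_) ?_ (fun ν hν => ?_)
    fun _ _ => rfl
  · refine Finset.mem_erase.2 ⟨fun h => hl.ne tj.1 (MonoidHom.ext fun u => ?_), Finset.mem_univ _⟩
    simpa using DFunLike.congr_fun h (S.pconj tj.2 u)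
  · have key : ∀ t t' j j', j ≤ j' → j' < S.m → S.act j (lamt t) = S.act j' (lamt t') →
        t = t' ∧ j = j' := by
      intro t t' j j' hle hlt h
      have h2 := congrArg (S.act (S.m - j)) h
      rw [S.act_act, S.act_act, show j + (S.m - j) = 0 + S.m by omega, S.act_add_m, S.act_zero,
        show j' + (S.m - j) = j' - j + S.m by omega, S.act_add_m] at h2
      obtain ⟨h3, h4⟩ := hl.free t' t (j' - j) (by omega) h2.symm
      exact ⟨h3.symm, by omega⟩
    rintro ⟨t, j⟩ hj ⟨t', j'⟩ hj' h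
    simp only [Finset.mem_product, Finset.mem_range] at hj hj'
    rcases le_total j j' with hle | hle
    · obtain ⟨rfl, rfl⟩ := key t t' j j' hle hj'.2 h
      rfl
    · obtain ⟨rfl, rfl⟩ := key t' t j' j hle hj.2 h.symm
      rfl
  · obtain ⟨t, j, hj, h⟩ := hl.all ν (Finset.mem_erase.1 hν).1
    exact ⟨(t, j), Finset.mem_product.2 ⟨Finset.mem_univ _, Finset.mem_range.2 hj⟩, h⟩

/-- The columns of the exceptional characters. -/
noncomputable def tfun (lamt : Fin S.r → (P →* ℂˣ)) (t : Fin S.r) (u : P) : ℂ :=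
  ∑ j ∈ Finset.range S.m, ((S.act j (lamt t) u : ℂˣ) : ℂ)

theorem tfun_int (t : Fin S.r) (u : P) : IsIntegral ℤ (S.tfun lamt t u) := by
  refine IsIntegral.sum _ fun j _ => IsIntegral.of_pow (orderOf_pos u) ?_
  rw [← Units.val_pow_eq_pow_val, ← map_pow, pow_orderOf_eq_one, map_one, Units.val_one]
  exact isIntegral_one

theorem sum_tfun (hl : S.IsDualReps lamt) {u : P} (hu : u ≠ 1) :
    ∑ t, S.tfun lamt t u = -1 := by
  haveI := S.finite_dual.1
  haveI := Fintype.ofFinite (P →* ℂˣ)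
  simp only [tfun]
  rw [S.sum_dualReps hl fun ν => ((ν u : ℂˣ) : ℂ), S.sum_dual, if_neg hu]
  simp

theorem tfun_shift (t : Fin S.r) (v : P) (j : ℕ) : S.tfun lamt t v =
    ∑ i ∈ Finset.range S.m, ((S.act j (lamt t) ((S.pconj i).symm v) : ℂˣ) : ℂ) := by
  rw [tfun, ← sum_range_shift (fun i => ((S.act i (lamt t) v : ℂˣ) : ℂ))
    (fun i => by rw [S.act_add_m]) j]
  refine Finset.sum_congr rfl fun i _ => ?_
  congr 1
  show lamt t ((S.pconj (j + i)).symm v) = lamt t ((S.pconj j).symm ((S.pconj i).symm v))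
  rw [S.pconj_symm_add]

/-- Orthogonality of the columns. -/
theorem sum_tfun_mul (hl : S.IsDualReps lamt) (u v : P) :
    ∃ n : ℤ, ∑ t, S.tfun lamt t u * S.tfun lamt t v + (S.m : ℂ) =
      ((p ^ S.a : ℕ) : ℂ) * n := by
  haveI := S.finite_dual.1
  haveI := Fintype.ofFinite (P →* ℂˣ)
  refine ⟨((Finset.range S.m).filter fun i => u * (S.pconj i).symm v = 1).card, ?_⟩
  have h1 : ∀ t, S.tfun lamt t u * S.tfun lamt t v = ∑ i ∈ Finset.range S.m,
      ∑ j ∈ Finset.range S.m, ((S.act j (lamt t) (u * (S.pconj i).symm v) : ℂˣ) : ℂ) := by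
    intro t
    conv_lhs => arg 1; rw [tfun]
    rw [Finset.sum_mul, Finset.sum_comm]
    refine Finset.sum_congr rfl fun j _ => ?_
    rw [S.tfun_shift t v j, Finset.mul_sum]
    exact Finset.sum_congr rfl fun i _ => by rw [map_mul, Units.val_mul]
  rw [Finset.sum_congr rfl fun t _ => h1 t, Finset.sum_comm,
    Finset.sum_congr rfl fun i _ => S.sum_dualReps hl fun ν => ((ν (u * (S.pconj i).symm v) : ℂˣ) : ℂ)]
  simp only [S.sum_dual, MonoidHom.one_apply, Units.val_one, Finset.sum_sub_distrib,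
    Finset.sum_const, Finset.card_range, nsmul_eq_mul, mul_one, ← Finset.sum_filter,
    sub_add_cancel]
  push_cast
  ring

/-- The part of a class function at a section of the block, through the local block. -/
theorem sec_eq_sum_secH [Fintype S.CZ] [Fintype S.f] {φ : G → ℂ} (hφ : IsClassFunction G φ)
    {u : P} (hu : u ≠ 1) {s : S.CZ} (hc : Commute (S.uH u) s) (hs : ¬ p ∣ orderOf s) :
    sec M φ (u : G) (below p M P e (u : G)) ((u : G) * (s : G)) =
      ∑ η : S.f, classInner (fun h : S.CZ => φ h) (η.1 : S.CZ → ℂ) *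
        S.secH (η.1 : S.CZ → ℂ) u s := by
  haveI : Fact p.Prime := ⟨S.hM.1⟩
  obtain ⟨g', hg'b, hle, hb⟩ :=
    exists_below S.hM S.eH_max.1.1.1 S.eH_max.1.1.2 (S.uH_mem u)
  set C := Subgroup.centralizer (Subgroup.zpowers (u : G) : Set G) with hCdef
  have hC : C ≤ S.CZ := S.centralizer_le_CZ hu
  set ψ := centSub hC (S.mem_centralizer_uH u) with hψ
  set fu := mapBlock ψ g' with hfudef
  have hfu : IsPBlock M fu := isPBlock_mapBlock _ hg'b
  have hbel : below p M P e (u : G) = pbar M (Subgroup.zpowers (u : G)) fu := by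
    rw [← S.emb_below hu, hb, ← pbar_centSub hC (S.mem_centralizer_uH u) g', hfudef]
  have hpair : IsBrauerPairOf p M S.f (Subgroup.zpowers (S.uH u)) g' :=
    (pairOf_iff_of_le S.hM S.eH_max.1.1.1 S.eH_max.1.1.2 hle).2 S.eH_max.1
  set φH : S.CZ → ℂ := fun h => φ h with hφH
  have hφHc : IsClassFunction S.CZ φH := fun x y => hφ (x : G) (y : G)
  set s' : Subgroup.centralizer (Subgroup.zpowers (S.uH u) : Set S.CZ) :=
    ⟨s, mem_centralizer_zpowers.2 hc⟩ with hs'
  have hs'r : ¬ p ∣ orderOf s' := by rwa [← Subgroup.orderOf_coe]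
  set sC : C := ⟨(s : G), mem_centralizer_zpowers.2 (hc.map S.CZ.subtype)⟩ with hsC
  rw [hbel, show (u : G) * (s : G) = (u : G) * ((sC : C) : G) from rfl]
  have htrans : sec M φ (u : G) (pbar M _ fu) ((u : G) * ((sC : C) : G)) =
      sec M φH (S.uH u) (pbar M _ g') (S.uH u * (s' : S.CZ)) := by
    haveI := Fintype.ofFinite C
    haveI := Fintype.ofFinite (Subgroup.centralizer (Subgroup.zpowers (S.uH u) : Set S.CZ))
    rw [sec_eq_blockPart hφ hfu, sec_eq_blockPart hφHc hg'b,
      blockPart_eq_sum _ (isClassFunction_trans hφ (u : G)),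
      blockPart_eq_sum _ (isClassFunction_trans hφHc (S.uH u)), ← Equiv.sum_comp ψ.toEquiv]
    refine Finset.sum_congr rfl fun k _ => ?_
    simp only [MulEquiv.toEquiv_eq_coe, EquivLike.coe_coe, hfudef, blockCoeff_mapBlock]
    rfl
  rw [htrans]
  simp only [secH, hb]
  have hexp : φH = ∑ η : IrrCharacter S.CZ, classInner φH (η : S.CZ → ℂ) • (η : S.CZ → ℂ) :=
    Char.eq_sum_classInner_smul hφHc
  have hlin : sec M φH (S.uH u) (pbar M _ g') (S.uH u * (s' : S.CZ)) =
      ∑ η : IrrCharacter S.CZ, classInner φH (η : S.CZ → ℂ) *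
        sec M (η : S.CZ → ℂ) (S.uH u) (pbar M _ g') (S.uH u * (s' : S.CZ)) := by
    simp only [sec]
    conv_lhs => rw [hexp]
    simp only [pair_eq_sum, Finset.sum_apply, Pi.smul_apply, smul_eq_mul, Finset.mul_sum]
    rw [Finset.sum_comm]
    exact Finset.sum_congr rfl fun η _ => Finset.sum_congr rfl fun v _ => by ring
  rw [hlin, ← Finset.sum_subtype (p := fun η => η ∈ S.f) (Finset.univ.filter (· ∈ S.f))
    (fun η => by simp) fun η : IrrCharacter S.CZ => classInner φH (η : S.CZ → ℂ) *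
      sec M (η : S.CZ → ℂ) (S.uH u) (pbar M _ g') (S.uH u * (s' : S.CZ))]
  refine (Finset.sum_subset (Finset.subset_univ _) fun η _ hη => ?_).symm
  rw [sec_eq_zero_of_not_mem S.hM S.hf (fun h => hη (by simp [h])) (S.uH_isPElem u) hpair hs'r,
    mul_zero]

/-- The generalised decomposition numbers. -/
theorem exists_cycData (hl : S.IsDualReps lamt) :
    Nonempty (CycData p M B (p ^ S.a) S.m
      fun t (u : {u : P // u ≠ 1}) => S.tfun lamt t u.1) := by
  haveI : Fact p.Prime := ⟨S.hM.1⟩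
  haveI := Fintype.ofFinite G
  haveI := Fintype.ofFinite S.CZ
  haveI := Fintype.ofFinite S.f
  haveI := S.finite_dual.1
  haveI := Fintype.ofFinite (P →* ℂˣ)
  obtain ⟨η₀, -, h0, -⟩ := S.exists_base
  have hR := S.isReps_eta h0 hl
  obtain ⟨μ, δ, ε, hμ, hcard, hμB, hε, hδ, hδ0, hδμ, hcoef⟩ := S.exists_coeff hR
  -- the values at the sections of the block
  have hval : ∀ χ : IrrCharacter G, ∀ {u : P}, u ≠ 1 → ∀ {s : S.CZ}, Commute (S.uH u) s →
      ¬ p ∣ orderOf s → sec M (χ : G → ℂ) (u : G) (below p M P e (u : G)) ((u : G) * (s : G)) =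
        S.secH (η₀.1 : S.CZ → ℂ) u s *
          (-(δ χ : ℂ) + ∑ t, if μ t = χ then (ε : ℂ) * S.tfun lamt t u else 0) := by
    intro χ u hu s hc hs
    have hχc := Char.isClassFunction_of_isIrr χ.2
    rw [S.sec_eq_sum_secH hχc hu hc hs]
    have hreal : ∀ η : S.f, classInner (fun h : S.CZ => (χ : G → ℂ) h) (η.1 : S.CZ → ℂ) =
        classInner (η.1 : S.CZ → ℂ) (fun h : S.CZ => (χ : G → ℂ) h) := fun η => by
      obtain ⟨k, hk⟩ := Char.classInner_natCast
        (Char.isCharacter_of_isIrr η.1.2)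
        (Char.isCharacter_restrict (Char.isCharacter_of_isIrr χ.2) S.CZ)
      rw [Char.classInner_conj_symm (η.1 : S.CZ → ℂ), hk, Complex.conj_natCast]
    simp only [hreal]
    set c : (P →* ℂˣ) → ℂ := fun ν => classInner ((S.eta η₀ ν).1 : S.CZ → ℂ)
      (fun h : S.CZ => (χ : G → ℂ) h) with hcdef
    rw [← (S.eta_bijective η₀).sum_comp, Finset.sum_congr rfl (g := fun ν =>
      (c ν - c 1) * ((ν u : ℂˣ) : ℂ) * S.secH (η₀.1 : S.CZ → ℂ) u s +
        c 1 * ((ν u : ℂˣ) : ℂ) * S.secH (η₀.1 : S.CZ → ℂ) u s) fun ν _ => by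
      rw [S.secH_eta η₀ ν u hc hs, hcdef]; ring,
      Finset.sum_add_distrib, ← Finset.sum_mul, ← Finset.sum_mul, ← Finset.mul_sum, S.sum_dual,
      if_neg hu, mul_zero, zero_mul, add_zero, mul_comm]
    congr 1
    have hstep := S.sum_dualReps hl fun ν => (c ν - c 1) * ((ν u : ℂˣ) : ℂ)
    simp only [sub_self, zero_mul, sub_zero] at hstep
    rw [← hstep]
    have hterm : ∀ t, ∑ j ∈ Finset.range S.m, (c (S.act j (lamt t)) - c 1) *
        ((S.act j (lamt t) u : ℂˣ) : ℂ) =
        ((δ χ + if μ t = χ then ε else 0 : ℤ) : ℂ) * S.tfun lamt t u := fun t => by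
      rw [tfun, Finset.mul_sum]
      refine Finset.sum_congr rfl fun j _ => ?_
      rw [← hcoef t χ, S.classInner_ind _ _ hχc, hcdef]
      congr 2
      · show classInner ((S.eta η₀ (S.act j (lamt t))).1 : S.CZ → ℂ) _ = _
        rw [← S.perm_pow_eta η₀ h0, S.coef_inv j _ hχc]
      · show classInner ((S.eta η₀ 1).1 : S.CZ → ℂ) _ = _
        rw [S.eta_one]
    rw [Finset.sum_congr rfl fun t _ => hterm t]
    simp only [Int.cast_add, Int.cast_ite, Int.cast_zero, add_mul, ite_mul, zero_mul,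
      Finset.sum_add_distrib, ← Finset.mul_sum, S.sum_tfun hl hu]
    ring
  refine ⟨⟨μ, δ, ε, hμ, hμB, hε, hδ, hδ0, hδμ, hcard, fun t g hg => ?_,
    fun u => S.sum_tfun hl u.2, fun t u => S.tfun_int t u.1, fun x hx => ?_⟩⟩
  · -- regular elements
    have h := congrFun (Char.eq_sum_classInner_smul
      (Char.isClassFunction_of_generalized (S.generalized_ind (S.eta η₀ (lamt t)).1 η₀.1))) g
    rw [S.ind_regular (S.eta η₀ (lamt t)).2 η₀.2 hg] at h
    simp only [Finset.sum_apply, Pi.smul_apply, smul_eq_mul, hcoef t, Int.cast_add, add_mul,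
      Finset.sum_add_distrib, Int.cast_ite, Int.cast_zero, ite_mul, zero_mul, Finset.sum_ite_eq,
      Finset.mem_univ, if_true] at h
    rw [finsum_eq_sum_of_fintype, add_comm]
    exact h.symm
  · -- singular elements
    have hparts := exists_parts S.hM x
    have hup : IsPElem p (pp p x) := isPElem_pp x
    generalize pp p x = u at hparts hup
    obtain ⟨s, hs, hxs⟩ := hparts
    have hu1 : u ≠ 1 := by
      intro h1
      subst h1
      rw [← hxs, one_mul, Subgroup.orderOf_coe] at hx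
      exact hs hx
    set s₀ := (pset M (Subgroup.zpowers u)).filter fun a => ∃ fa : CBlock (Subgroup.zpowers u),
      pbar M (Subgroup.zpowers u) fa = a ∧ IsPBlock M fa ∧
        IsBrauerPairOf p M B (Subgroup.zpowers u) fa with hs₀
    have hdata : ∀ a : s₀, ∃ (g : G) (hg : g * u * g⁻¹ ∈ P),
        below p M P e (g * u * g⁻¹) = cj g a.1 := by
      intro a
      obtain ⟨-, fa, hfa, hfab, hpair⟩ := Finset.mem_filter.1 a.2
      obtain ⟨g, hg⟩ := exists_conj_le_maximal S.hM hpair S.hmax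
      have hQ : Subgroup.zpowers (g * u * g⁻¹) = sj g (Subgroup.zpowers u) :=
        ((MulAut.conj g).toMonoidHom.map_zpowers u).symm
      refine ⟨g, subgroup_le hg ⟨u, Subgroup.mem_zpowers u, rfl⟩, ?_⟩
      rw [below_eq S.hM S.hP S.hmax.1.1.2 hQ.symm (isPBlock_conjBlock _ g hfab) hg, pbar_conjBlock,
        hfa]
    choose g hg hbel using hdata
    let v : s₀ → {w : P // w ≠ 1} := fun a => ⟨⟨_, hg a⟩, fun h =>
      hu1 (conj_eq_one_iff.1 (congrArg Subtype.val h))⟩
    have hcomm : ∀ a : s₀, Commute (g a * u * (g a)⁻¹) (g a * (s : G) * (g a)⁻¹) := fun a =>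
      (mem_centralizer_zpowers.1 s.2).map (MulAut.conj (g a)).toMonoidHom
    let t : s₀ → S.CZ := fun a => ⟨g a * (s : G) * (g a)⁻¹,
      S.centralizer_le_CZ (v a).2 (mem_centralizer_zpowers.2 (hcomm a))⟩
    have htc : ∀ a, Commute (S.uH (v a).1) (t a) := fun a => Subtype.ext (hcomm a)
    have htr : ∀ a, ¬ p ∣ orderOf (t a) := fun a => by
      rw [← Subgroup.orderOf_coe]
      show ¬ p ∣ orderOf (g a * (s : G) * (g a)⁻¹)
      rwa [orderOf_conj_eq, Subgroup.orderOf_coe]
    refine ⟨s₀, fun a => S.secH (η₀.1 : S.CZ → ℂ) (v a).1 (t a), v, fun a => ?_, fun χ hχ => ?_⟩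
    · obtain ⟨h1, h2⟩ := S.secH_facts η₀ (v a).2 (htc a) (htr a)
      refine ⟨h1, ?_⟩
      rw [← card_centralizer_conj (g a) x, Nat.cast_pow]
      rw [show ((v a).1 : G) * (t a : G) = g a * x * (g a)⁻¹ by
        show g a * u * (g a)⁻¹ * (g a * (s : G) * (g a)⁻¹) = _
        rw [← hxs]; group] at h2
      exact h2
    · have hχc := Char.isClassFunction_of_isIrr χ.2
      simp only
      refine Eq.trans (b := ∑ a : s₀, sec M (χ : G → ℂ) ((v a).1 : G)
        (below p M P e ((v a).1 : G)) (((v a).1 : G) * ((t a : S.CZ) : G))) ?_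
        (Finset.sum_congr rfl fun a _ => by convert hval χ (v a).2 (htc a) (htr a))
      rw [
        show (χ : G → ℂ) x = ∑ a ∈ s₀, sec M (χ : G → ℂ) u a (u * (s : G)) by
          rw [← hxs, ← sum_pset_sec S.hM hχc s]
          refine (Finset.sum_subset (Finset.filter_subset _ _) fun a ha hna => ?_).symm
          obtain ⟨fa, hfa, rfl⟩ := mem_pset.1 ha
          refine sec_eq_zero_of_not_pair S.hM S.hmax.1.2.1 hχ hup hfa (fun hp => ?_) hs
          exact hna (Finset.mem_filter.2 ⟨ha, fa, rfl, hfa, hp⟩),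
        ← Finset.sum_coe_sort s₀]
      refine Finset.sum_congr rfl fun a _ => ?_
      rw [← sec_conj hχc (g a) (Finset.mem_filter.1 a.2).1, ← hbel a]
      show sec M _ _ _ (g a * (u * (s : G)) * (g a)⁻¹) =
        sec M _ _ _ (g a * u * (g a)⁻¹ * (g a * (s : G) * (g a)⁻¹))
      congr 1
      group

end Setup

end Cfsg.Agent.Lib.CyclicDefect
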