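import Cfsg.Agent.Lib.CyclicDefect.Decomp
import Mathlib.RingTheory.ZMod.UnitsCyclic

/-!
# Blocks with cyclic defect groups of the same order and inertial index
-/

set_option autoImplicit false
set_option linter.unusedSectionVars false
set_option linter.style.haveILetI false
set_option maxHeartbeats 1000000

namespace Cfsg.Agent.Lib.CyclicDefect

open Cfsg Cfsg.Agent.Lib Cfsg.Agent.Lib.Block Cfsg.Agent.Lib.BrauerPairs Cfsg.Agent.Lib.Star
open scoped Classical

universe u v w

variable {p : ℕ} {M : Ideal AlgInt} [M.IsPrime] {G : Type u} [Group G] [Finite G]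
  {B : Set (IrrCharacter G)} {P : Subgroup G} {e : CBlock P}
  {H : Type v} [Group H] [Finite H] {B' : Set (IrrCharacter H)} {P' : Subgroup H}
  {e' : CBlock P'}

theorem CycData.castR {q m r r' : ℕ} {U : Type w} {T' : Fin r' → U → ℂ} (h : r' = r)
    (D : CycData p M B q m T') :
    Nonempty (CycData p M B q m fun t => T' (Fin.cast h.symm t)) := by
  subst h
  exact ⟨D⟩

namespace Setup

variable (S : Setup p M B P e)

theorem pconj_mul (i j : ℕ) : (S.pconj i : MulAut P) * S.pconj j = S.pconj (i + j) :=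
  MulEquiv.ext fun u => S.pconj_add i j u

theorem pconj_zero : (S.pconj 0 : MulAut P) = 1 :=
  MulEquiv.ext fun u => Subtype.ext (by
    show S.n ^ 0 * (u : G) * (S.n ^ 0)⁻¹ = u
    simp)

theorem pconj_pow (j k : ℕ) : (S.pconj j : MulAut P) ^ k = S.pconj (j * k) := by
  induction k with
  | zero => rw [pow_zero, mul_zero, pconj_zero]
  | succ k ih => rw [pow_succ, ih, S.pconj_mul, Nat.mul_succ]

theorem pconj_mul_m (j : ℕ) : (S.pconj (S.m * j) : MulAut P) = 1 := by
  rw [← S.pconj_pow, show (S.pconj S.m : MulAut P) = 1 from MulEquiv.ext S.pconj_m, one_pow]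

theorem eq_zero_of_pconj {i : ℕ} (hi : i < S.m) (h : (S.pconj i : MulAut P) = 1) : i = 0 := by
  refine S.n_min i hi (Subgroup.centralizer_le (SetLike.coe_subset_coe.2 S.Z_le) ?_)
  rw [Subgroup.mem_centralizer_iff]
  intro g hg
  have h0 : (S.pconj i : MulAut P) (⟨g, hg⟩ : P) = ⟨g, hg⟩ := by rw [h]; rfl
  have h1 : S.n ^ i * g * (S.n ^ i)⁻¹ = g := congrArg Subtype.val h0
  exact (mul_inv_eq_iff_eq_mul.1 h1).symm

theorem pconj_injOn {i j : ℕ} (hi : i < S.m) (hj : j < S.m)
    (h : (S.pconj i : MulAut P) = S.pconj j) : i = j := by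
  have key : ∀ i j, i ≤ j → j < S.m → (S.pconj i : MulAut P) = S.pconj j → i = j := by
    intro i j hle hj h
    rw [show S.pconj j = S.pconj i * S.pconj (j - i) by
      rw [S.pconj_mul, Nat.add_sub_cancel' hle], left_eq_mul] at h
    have := S.eq_zero_of_pconj (by omega) h
    omega
  rcases le_total i j with hle | hle
  · exact key i j hle hj h
  · exact (key j i hle hi h.symm).symm

/-- The inertial automorphisms are all those of order dividing the inertial index. -/
theorem exists_pconj (f : MulAut P) (hf : f ^ S.m = 1) :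
    ∃ j < S.m, f = (S.pconj j : MulAut P) := by
  haveI : Fact p.Prime := ⟨S.hM.1⟩
  haveI := S.hcyc
  by_cases hm : S.m = 1
  · rw [hm, pow_one] at hf
    exact ⟨0, S.m_pos, hf.trans S.pconj_zero.symm⟩
  have hp2 : p ≠ 2 := by
    intro h2
    have h3 := S.m_dvd
    subst h2
    exact hm (Nat.dvd_one.1 h3)
  haveI : IsCyclic (MulAut P) := by
    rw [(IsCyclic.mulAutMulEquiv P).isCyclic, S.card_P]
    exact ZMod.isCyclic_units_of_prime_pow p S.hM.1 hp2 S.a
  haveI : Finite (MulAut P) :=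
    Finite.of_injective (fun f : MulAut P => (f : P → P)) DFunLike.coe_injective
  haveI := Fintype.ofFinite (MulAut P)
  have hsub : (Finset.range S.m).image (fun j => (S.pconj j : MulAut P)) ⊆
      Finset.univ.filter fun g : MulAut P => g ^ S.m = 1 := by
    intro g hg
    obtain ⟨j, -, rfl⟩ := Finset.mem_image.1 hg
    refine Finset.mem_filter.2 ⟨Finset.mem_univ _, ?_⟩
    rw [S.pconj_pow, mul_comm, S.pconj_mul_m]
  have heq := Finset.eq_of_subset_of_card_le hsub (by
    rw [Finset.card_image_of_injOn fun i hi j hj h => S.pconj_injOn (Finset.mem_range.1 hi)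
      (Finset.mem_range.1 hj) h, Finset.card_range]
    exact IsCyclic.card_pow_eq_one_le S.m_pos)
  have hmem : f ∈ Finset.univ.filter fun g : MulAut P => g ^ S.m = 1 :=
    Finset.mem_filter.2 ⟨Finset.mem_univ _, hf⟩
  rw [← heq] at hmem
  obtain ⟨j, hj, rfl⟩ := Finset.mem_image.1 hmem
  exact ⟨j, Finset.mem_range.1 hj, rfl⟩

theorem exists_transport (S' : Setup p M B' P' e') (hm : S'.m = S.m) (θ : P' ≃* P) (j : ℕ) :
    ∃ j' < S.m, ∀ u, θ (S'.pconj j u) = S.pconj j' (θ u) := by
  obtain ⟨j', hj', h⟩ := S.exists_pconj (MulAut.congr θ (S'.pconj j)) (by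
    rw [← map_pow, S'.pconj_pow, ← hm, mul_comm, S'.pconj_mul_m, map_one])
  refine ⟨j', hj', fun u => ?_⟩
  rw [← h]
  show θ (S'.pconj j u) = θ (S'.pconj j (θ.symm (θ u)))
  rw [θ.symm_apply_apply]

theorem r_eq (S' : Setup p M B' P' e') (ha : S'.a = S.a) (hm : S'.m = S.m) : S'.r = S.r := by
  have h1 := S.m_mul_r
  have h2 := S'.m_mul_r
  rw [ha, hm] at h2
  exact Nat.eq_of_mul_eq_mul_left S.m_pos (h2.trans h1.symm)

/-- Blocks with the same defect order and inertial index are perfectly isometric. -/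
theorem exists_isometry_setups (S' : Setup p M B' P' e') (ha : S'.a = S.a) (hm : S'.m = S.m) :
    ∃ (T' : Fin S.r → {u : P' // u ≠ 1} → ℂ) (D' : CycData p M B' (p ^ S.a) S.m T')
      (I : IrrCharacter H → IrrCharacter G) (ε : IrrCharacter H → ℤ) (c : ℤ),
      IsPerfectIsometry p M B' B I ε ∧ (∀ t, ε (D'.μ t) = c) ∧
        (S.m = 1 → ∀ η ∈ B', ε η = c) := by
  haveI := S.hcyc
  haveI := S'.hcyc
  let θ : P' ≃* P := mulEquivOfCyclicCardEq (by rw [S'.card_P, S.card_P, ha])
  obtain ⟨η₀, lamt, -, hl⟩ := S.exists_dualReps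
  obtain ⟨D⟩ := S.exists_cycData hl
  have hr := r_eq S S' ha hm
  let lamt' : Fin S'.r → (P' →* ℂˣ) := fun t => (lamt (Fin.cast hr t)).comp θ.toMonoidHom
  have hact : ∀ {j j' : ℕ}, (∀ u, θ (S'.pconj j u) = S.pconj j' (θ u)) → ∀ ν : P →* ℂˣ,
      S'.act j (ν.comp θ.toMonoidHom) = (S.act j' ν).comp θ.toMonoidHom := fun {j j'} h ν =>
    MonoidHom.ext fun u => by
      show ν (θ ((S'.pconj j).symm u)) = ν ((S.pconj j').symm (θ u))
      congr 1
      rw [MulEquiv.eq_symm_apply, ← h, MulEquiv.apply_symm_apply]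
  have hcomp : ∀ ν μ : P →* ℂˣ, ν.comp θ.toMonoidHom = μ.comp θ.toMonoidHom → ν = μ :=
    fun ν μ h => MonoidHom.ext fun u => by
      simpa using DFunLike.congr_fun h (θ.symm u)
  have hl' : S'.IsDualReps lamt' := by
    refine ⟨fun t h => hl.ne _ (hcomp _ 1 (h.trans (MonoidHom.one_comp _).symm)),
      fun t t' j hj h => ?_, fun ν hν => ?_⟩
    · obtain ⟨j', hj', hjj⟩ := S.exists_transport S' hm θ j
      rw [hact hjj] at h
      obtain ⟨h1, h2⟩ := hl.free _ _ j' hj' (hcomp _ _ h)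
      refine ⟨Fin.cast_injective hr h1, S'.eq_zero_of_pconj hj (MulEquiv.ext fun u => θ.injective ?_)⟩
      rw [hjj, h2, S.pconj_zero]
      rfl
    · obtain ⟨t, j', hj', h⟩ := hl.all (ν.comp θ.symm.toMonoidHom) fun h1 => hν
        (MonoidHom.ext fun u => by simpa using DFunLike.congr_fun h1 (θ u))
      obtain ⟨j, hj, hjj⟩ := S'.exists_transport S hm.symm θ.symm j'
      refine ⟨Fin.cast hr.symm t, j, hj, ?_⟩
      rw [hact (j' := j') (fun u => ?_)]
      · show (S.act j' (lamt t)).comp θ.toMonoidHom = ν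
        rw [h]
        exact MonoidHom.ext fun u => by simp
      · apply θ.symm.injective
        rw [hjj, θ.symm_apply_apply, θ.symm_apply_apply]
  obtain ⟨D₀⟩ := S'.exists_cycData hl'
  rw [ha, hm] at D₀
  obtain ⟨D'⟩ := D₀.castR hr
  have htf : ∀ (t : Fin S.r) (v : P'),
      S'.tfun lamt' (Fin.cast hr.symm t) v = S.tfun lamt t (θ v) := by
    intro t v
    have ht : lamt' (Fin.cast hr.symm t) = (lamt t).comp θ.toMonoidHom := rfl
    choose f hf hfj using fun j => S.exists_transport S' hm θ j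
    simp only [tfun, ht, hm]
    refine Finset.sum_nbij f (fun j _ => Finset.mem_range.2 (hf j)) (fun i hi j hj h => ?_)
      (fun k hk => ?_) fun j _ => ?_
    · refine S'.pconj_injOn (hm ▸ Finset.mem_range.1 hi) (hm ▸ Finset.mem_range.1 hj)
        (MulEquiv.ext fun u => θ.injective ?_)
      rw [hfj, hfj, h]
    · obtain ⟨j, hj, hjj⟩ := S'.exists_transport S hm.symm θ.symm k
      refine ⟨j, Finset.mem_range.2 (hm ▸ hj), S.pconj_injOn (hf j) (Finset.mem_range.1 hk)
        (MulEquiv.ext fun u => ?_)⟩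
      obtain ⟨w, rfl⟩ := θ.surjective u
      rw [← hfj]
      apply θ.symm.injective
      rw [θ.symm_apply_apply, hjj, θ.symm_apply_apply]
    · rw [hact (hfj j)]
      rfl
  obtain ⟨I, ε, h1, h2, h3⟩ := D.exists_isometry S.hM D' fun x y => by
    obtain ⟨k, hk⟩ := S.sum_tfun_mul hl x.1 (θ y.1)
    exact ⟨k, by simpa only [htf] using hk⟩
  exact ⟨_, D', I, ε, _, h1, h2, fun hm1 => h3 hm1 S.r_pos⟩

end Setup

end Cfsg.Agent.Lib.CyclicDefect
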